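import Mathlib
import Cfsg.Agent.CT.Unitary

/-! Frobenius' form of Jordan's theorem (Isaacs 14.13). -/

set_option autoImplicit false

namespace Cfsg

universe u

/-- the unit circle is cut into `m` arcs of length `2π/m` -/
theorem exists_arc_box {m : ℕ} (hm : 2 ≤ m) :
    ∃ f : ℂ → Fin m, ∀ z w : ℂ, ‖z‖ = 1 → ‖w‖ = 1 → f z = f w →
      Real.cos (2 * Real.pi / m) < (z * w⁻¹).re := by
  have hmR : (2 : ℝ) ≤ m := by exact_mod_cast hm
  have hπ := Real.pi_pos
  have hδ : 0 < 2 * Real.pi / m := by positivity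
  have hb : ∀ z : ℂ, ⌊(Real.pi - z.arg) / (2 * Real.pi / m)⌋₊ < m := by
    intro z
    rw [Nat.floor_lt (div_nonneg (by linarith [Complex.arg_le_pi z]) hδ.le), div_lt_iff₀ hδ]
    have := Complex.neg_pi_lt_arg z
    have h2 : (m : ℝ) * (2 * Real.pi / m) = 2 * Real.pi := by field_simp
    linarith
  refine ⟨fun z => ⟨_, hb z⟩, fun z w hz hw h => ?_⟩
  have h1 : ⌊(Real.pi - z.arg) / (2 * Real.pi / m)⌋₊ = ⌊(Real.pi - w.arg) / (2 * Real.pi / m)⌋₊ :=
    congrArg Fin.val h
  have hz0 : 0 ≤ (Real.pi - z.arg) / (2 * Real.pi / m) :=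
    div_nonneg (by linarith [Complex.arg_le_pi z]) hδ.le
  have hw0 : 0 ≤ (Real.pi - w.arg) / (2 * Real.pi / m) :=
    div_nonneg (by linarith [Complex.arg_le_pi w]) hδ.le
  have a1 := Nat.floor_le hz0
  have a2 := Nat.lt_floor_add_one ((Real.pi - z.arg) / (2 * Real.pi / m))
  have a3 := Nat.floor_le hw0
  have a4 := Nat.lt_floor_add_one ((Real.pi - w.arg) / (2 * Real.pi / m))
  rw [h1] at a1 a2
  have h2 : |z.arg - w.arg| < 2 * Real.pi / m := by
    have e : z.arg - w.arg = ((Real.pi - w.arg) / (2 * Real.pi / m) -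
        (Real.pi - z.arg) / (2 * Real.pi / m)) * (2 * Real.pi / m) := by
      field_simp; ring
    rw [e, abs_mul, abs_of_pos hδ]
    refine mul_lt_of_lt_one_left hδ ?_
    rw [abs_lt]; constructor <;> linarith
  have h3 : z * w⁻¹ = Complex.exp (((z.arg - w.arg : ℝ) : ℂ) * Complex.I) := by
    have e1 := Complex.norm_mul_exp_arg_mul_I z
    have e2 := Complex.norm_mul_exp_arg_mul_I w
    rw [hz] at e1; rw [hw] at e2
    simp only [Complex.ofReal_one, one_mul] at e1 e2
    rw [Complex.ofReal_sub, sub_mul, Complex.exp_sub, e1, e2, div_eq_mul_inv]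
  rw [h3, Complex.exp_ofReal_mul_I_re, ← Real.cos_abs (z.arg - w.arg)]
  refine Real.cos_lt_cos_of_nonneg_of_le_pi (abs_nonneg _) ?_ h2
  rw [div_le_iff₀ (by linarith)]
  nlinarith

theorem norm_sub_lt_half_of_re {z : ℂ} (hz : ‖z‖ = 1) (h : Real.cos (2 * Real.pi / (12 : ℕ)) < z.re) :
    ‖z - ((√3 / 2 : ℝ) : ℂ)‖ < 1 / 2 := by
  have e : 2 * Real.pi / (12 : ℕ) = Real.pi / 6 := by push_cast; ring
  rw [e, Real.cos_pi_div_six] at h
  have h1 : z.re ^ 2 + z.im ^ 2 = 1 := by
    have := Complex.sq_norm z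
    rw [hz, Complex.normSq_apply] at this
    nlinarith
  have h3 : √3 * √3 = 3 := Real.mul_self_sqrt (by norm_num)
  have h4 : 0 < √3 := Real.sqrt_pos.2 (by norm_num)
  refine lt_of_pow_lt_pow_left₀ 2 (by norm_num) ?_
  rw [Complex.sq_norm, Complex.normSq_apply]
  simp only [Complex.sub_re, Complex.ofReal_re, Complex.sub_im, Complex.ofReal_im, sub_zero]
  nlinarith

theorem norm_sub_one_lt_one_of_re {z : ℂ} (hz : ‖z‖ = 1)
    (h : Real.cos (2 * Real.pi / (6 : ℕ)) < z.re) : ‖z - 1‖ < 1 := by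
  have e : 2 * Real.pi / (6 : ℕ) = Real.pi / 3 := by push_cast; ring
  rw [e, Real.cos_pi_div_three] at h
  have h1 : z.re ^ 2 + z.im ^ 2 = 1 := by
    have := Complex.sq_norm z
    rw [hz, Complex.normSq_apply] at this
    nlinarith
  refine lt_of_pow_lt_pow_left₀ 2 (by norm_num) ?_
  rw [Complex.sq_norm, Complex.normSq_apply]
  simp only [Complex.sub_re, Complex.one_re, Complex.sub_im, Complex.one_im, sub_zero]
  nlinarith

/-- a subgroup has index at most the number of values of a function whose fibres lie in cosets -/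
theorem index_le_card_of_fibers {G : Type u} [Group G] (A : Subgroup G) {α : Type*} [Finite α]
    (f : G → α) (h : ∀ x y, f x = f y → x⁻¹ * y ∈ A) : A.index ≤ Nat.card α := by
  refine Nat.card_le_card_of_injective (fun q : G ⧸ A => f q.out) fun q r hqr => ?_
  rw [← q.out_eq, ← r.out_eq]
  exact Quotient.sound (QuotientGroup.leftRel_apply.2 (h _ _ hqr))

/-- Isaacs 14.13 -/
theorem exists_abelian_normal_index_le_twelve_pow {G : Type u} [Group G] [Finite G] {χ : G → ℂ}
    (hχ : IsCharacter G χ) (hfaith : ∀ g : G, χ g = χ 1 → g = 1) :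
    ∃ A : Subgroup G, A.Normal ∧ (∀ x ∈ A, ∀ y ∈ A, x * y = y * x) ∧
      ∀ H : Subgroup G, (∀ x ∈ H, ∀ y ∈ H, x * y = y * x) →
        (A.subgroupOf H).index ≤ 12 ^ charDegree χ := by
  obtain ⟨A, hA, hAc, hmem⟩ := exists_abelian_normal_near_scalar hχ hfaith
  refine ⟨A, hA, hAc, fun H hH => ?_⟩
  have : IsMulCommutative H := ⟨⟨fun a b => Subtype.ext (hH a a.2 b b.2)⟩⟩
  obtain ⟨l, hl, -⟩ := (hχ.res H).exists_sum_hom
  obtain ⟨f, hf⟩ := exists_arc_box (m := 12) (by norm_num)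
  have h1 := index_le_card_of_fibers (A.subgroupOf H) (fun h i => f (l i h : ℂ)) ?_
  · rw [Nat.card_fun, Nat.card_eq_fintype_card, Nat.card_eq_fintype_card, Fintype.card_fin,
      Fintype.card_fin, charDegree_res] at h1
    exact h1
  intro x y hxy
  rw [Subgroup.mem_subgroupOf]
  refine hmem _ _ (fun i => (l i (x⁻¹ * y) : ℂ)) (fun i => ?_) (fun k => ?_) ((√3 / 2 : ℝ) : ℂ)
    (fun i => ?_)
  · rw [Subgroup.orderOf_coe]
    exact unitsHom_pow_orderOf _ _
  · rw [← Subgroup.coe_pow, hl]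
    simp only [map_pow, Units.val_pow_eq_pow_val]
  · refine norm_sub_lt_half_of_re (norm_unitsHom _ _) ?_
    have := hf _ _ (norm_unitsHom (l i) y) (norm_unitsHom (l i) x) (congrFun hxy i).symm
    rw [map_mul, map_inv, Units.val_mul, Units.val_inv_eq_inv_val, mul_comm (_ : ℂ)]
    exact this

end Cfsg
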