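import Cfsg.Agent.CT.Jordan

/-! Jordan's original counting proof of his theorem on finite linear groups (group-theoretic
part). -/

set_option autoImplicit false

namespace Cfsg

open scoped Pointwise commutatorElement

universe u v

section orbits
variable {Γ : Type u} [Group Γ] {X : Type v} [MulAction Γ X]

/-- an invariant function is summed orbit by orbit -/
theorem sum_eq_sum_orbits_index [Fintype X] [Fintype (MulAction.orbitRel.Quotient Γ X)]
    (w : X → ℕ) (hw : ∀ (g : Γ) x, w (g • x) = w x) :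
    ∑ x, w x = ∑ o : MulAction.orbitRel.Quotient Γ X,
      (MulAction.stabilizer Γ (Quotient.out o)).index * w (Quotient.out o) := by
  classical
  rw [← Finset.sum_fiberwise Finset.univ
    (fun x : X => (Quotient.mk'' x : MulAction.orbitRel.Quotient Γ X))]
  refine Finset.sum_congr rfl fun o _ => ?_
  have h1 : ∀ x, (Quotient.mk'' x : MulAction.orbitRel.Quotient Γ X) = o ↔
      x ∈ MulAction.orbit Γ (Quotient.out o) := by
    intro x
    conv_lhs => rw [← Quotient.out_eq' o]
    rw [Quotient.eq'', MulAction.orbitRel_apply]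
  rw [Finset.sum_congr rfl (g := fun _ => w (Quotient.out o))]
  · rw [Finset.sum_const, smul_eq_mul, MulAction.index_stabilizer]
    congr 1
    rw [← Set.ncard_coe_finset]
    congr 1
    ext x
    simp only [Finset.coe_filter, Finset.mem_univ, true_and, Set.mem_ofPred_eq, h1]
  · intro x hx
    obtain ⟨g, rfl⟩ := (h1 x).1 (Finset.mem_filter.1 hx).2
    exact hw g _

theorem card_dvd_sum_of_card_stabilizer_dvd [Fintype X] (w : X → ℕ)
    (hw : ∀ (g : Γ) x, w (g • x) = w x)
    (h : ∀ x, Nat.card (MulAction.stabilizer Γ x) ∣ w x) : Nat.card Γ ∣ ∑ x, w x := by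
  classical
  let _ : Fintype (MulAction.orbitRel.Quotient Γ X) := Fintype.ofFinite _
  rw [sum_eq_sum_orbits_index w hw]
  refine Finset.dvd_sum fun o _ => ?_
  rw [← (MulAction.stabilizer Γ (Quotient.out o)).index_mul_card]
  exact Nat.mul_dvd_mul_left _ (h _)

end orbits

/-- the arithmetic lemma in Jordan's proof of his theorem on linear groups -/
theorem exists_bound_of_dvd_mul_sum_sub_one (k : ℕ) : ∀ D : ℕ, 0 < D → ∃ B : ℕ,
    ∀ {ι : Type u} (s : Finset ι) (r : ι → ℕ) (Ω : ℕ), s.card ≤ k → 0 < Ω →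
      (∀ i ∈ s, r i ∣ Ω) → (Ω : ℤ) ∣ D * ((∑ i ∈ s, r i : ℕ) - 1 : ℤ) →
      Ω ≤ B ∨ ∃ i ∈ s, r i = 1 := by
  induction k with
  | zero =>
    intro D hD
    refine ⟨D, fun s r Ω hs hΩ _ h => Or.inl ?_⟩
    obtain rfl : s = ∅ := Finset.card_eq_zero.1 (Nat.le_zero.1 hs)
    simp only [Finset.sum_empty, Nat.cast_zero, zero_sub, mul_neg, mul_one, Int.dvd_neg] at h
    exact Nat.le_of_dvd hD (Int.natCast_dvd_natCast.1 h)
  | succ k ih =>
    intro D hD
    obtain ⟨B, hB⟩ := ih (D * ((k + 1) * D).factorial) (Nat.mul_pos hD (Nat.factorial_pos _))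
    refine ⟨max B D, fun {ι} s r Ω hs hΩ hr h => ?_⟩
    classical
    rcases s.eq_empty_or_nonempty with rfl | hne
    · left
      simp only [Finset.sum_empty, Nat.cast_zero, zero_sub, mul_neg, mul_one, Int.dvd_neg] at h
      exact (Nat.le_of_dvd hD (Int.natCast_dvd_natCast.1 h)).trans (le_max_right _ _)
    obtain ⟨i, hi, hmax⟩ := s.exists_max_image r hne
    have hri : 0 < r i := Nat.pos_of_dvd_of_pos (hr i hi) hΩ
    by_cases h1 : r i = 1
    · exact Or.inr ⟨i, hi, h1⟩
    have hsum : r i ≤ ∑ j ∈ s, r j := Finset.single_le_sum (fun j _ => Nat.zero_le _) hi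
    have hsum2 : ∑ j ∈ s, r j ≤ (k + 1) * r i := by
      refine (Finset.sum_le_card_nsmul s r (r i) hmax).trans ?_
      rw [smul_eq_mul]
      exact Nat.mul_le_mul_right _ hs
    have h2 : Ω ∣ D * (∑ j ∈ s, r j - 1) := by
      rw [← Int.natCast_dvd_natCast, Nat.cast_mul, Nat.cast_sub (by omega)]
      exact h
    have h3 : Ω ≤ D * (∑ j ∈ s, r j - 1) := Nat.le_of_dvd (Nat.mul_pos hD (by omega)) h2
    obtain ⟨ω, hω⟩ := hr i hi
    have hω0 : 0 < ω := Nat.pos_of_mul_pos_left (hω ▸ hΩ) |> fun h => by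
      rcases Nat.eq_zero_or_pos ω with h0 | h0
      · rw [h0, mul_zero] at hω; omega
      · exact h0
    have h4 : ω ≤ (k + 1) * D := by
      have : r i * ω ≤ r i * ((k + 1) * D) := by
        calc r i * ω = Ω := hω.symm
          _ ≤ D * (∑ j ∈ s, r j - 1) := h3
          _ ≤ D * ((k + 1) * r i) := Nat.mul_le_mul_left _ (by omega)
          _ = r i * ((k + 1) * D) := by ring
      exact Nat.le_of_mul_le_mul_left this hri
    have h5 : Ω ∣ r i * ((k + 1) * D).factorial := by
      rw [hω]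
      exact Nat.mul_dvd_mul_left _ (Nat.dvd_factorial hω0 h4)
    have h6 : (Ω : ℤ) ∣ (D * ((k + 1) * D).factorial : ℕ) *
        ((∑ j ∈ s.erase i, r j : ℕ) - 1 : ℤ) := by
      have h7 : ∑ j ∈ s, r j = r i + ∑ j ∈ s.erase i, r j := (Finset.add_sum_erase s r hi).symm
      have h8 : ((D * ((k + 1) * D).factorial : ℕ) : ℤ) * ((∑ j ∈ s.erase i, r j : ℕ) - 1 : ℤ) =
          (((k + 1) * D).factorial : ℕ) * (D * ((∑ i ∈ s, r i : ℕ) - 1 : ℤ)) -
            D * ((r i * ((k + 1) * D).factorial : ℕ) : ℤ) := by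
        rw [h7]; push_cast; ring
      rw [h8]
      exact dvd_sub (h.mul_left _) ((Int.natCast_dvd_natCast.2 h5).mul_left _)
    rcases hB (s.erase i) r Ω (by rw [Finset.card_erase_of_mem hi]; omega) hΩ
      (fun j hj => hr j (Finset.mem_of_mem_erase hj)) h6 with h | ⟨j, hj, h⟩
    · exact Or.inl (h.trans (le_max_left _ _))
    · exact Or.inr ⟨j, Finset.mem_of_mem_erase hj, h⟩

section fan
variable {G : Type u} [Group G]

/-- a *fan* (after Jordan): an abelian subgroup all of whose subgroups of index at most `J` have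
the same centralizer -/
def IsJFan (J : ℕ) (F : Subgroup G) : Prop :=
  F ≤ Subgroup.centralizer (F : Set G) ∧ ∀ F₀ : Subgroup G, F₀ ≤ F → F₀.relIndex F ≤ J →
    Subgroup.centralizer (F₀ : Set G) ≤ Subgroup.centralizer (F : Set G)

variable {J : ℕ}

theorem isJFan_of_le_center {Z : Subgroup G} (hZ : Z ≤ Subgroup.center G) : IsJFan J Z := by
  have h : Subgroup.centralizer (Z : Set G) = ⊤ := Subgroup.centralizer_eq_top_iff_subset.2 hZ
  exact ⟨h ▸ le_top, fun _ _ _ => h ▸ le_top⟩

theorem IsJFan.sup [Finite G] {F F' : Subgroup G} (h : IsJFan J F) (h' : IsJFan J F')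
    (hc : F ≤ Subgroup.centralizer (F' : Set G)) : IsJFan J (F ⊔ F') := by
  have key : ∀ H : Subgroup G, H ≤ Subgroup.centralizer (F : Set G) →
      H ≤ Subgroup.centralizer (F' : Set G) → H ≤ Subgroup.centralizer ((F ⊔ F' : Subgroup G) : Set G) := by
    intro H h1 h2
    rw [Subgroup.le_centralizer_iff] at h1 h2 ⊢
    exact sup_le h1 h2
  refine ⟨key _ (sup_le h.1 (Subgroup.le_centralizer_iff.1 hc)) (sup_le hc h'.1), ?_⟩
  intro F₀ _ hJ
  have aux : ∀ E : Subgroup G, IsJFan J E → E ≤ F ⊔ F' →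
      Subgroup.centralizer (F₀ : Set G) ≤ Subgroup.centralizer (E : Set G) := by
    intro E hE hle
    refine le_trans (Subgroup.centralizer_le (show ((F₀ ⊓ E : Subgroup G) : Set G) ⊆ F₀ from
      fun x hx => hx.1)) (hE.2 _ inf_le_right ?_)
    rw [Subgroup.inf_relIndex_right]
    exact (Subgroup.relIndex_le_of_le_right hle Subgroup.index_ne_zero_of_finite).trans hJ
  exact key _ (aux F h le_sup_left) (aux F' h' le_sup_right)

theorem IsJFan.map {F : Subgroup G} (h : IsJFan J F) (σ : G ≃* G) :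
    IsJFan J (F.map σ.toMonoidHom) := by
  have hc : ∀ (E : Subgroup G) (x : G), σ x ∈ Subgroup.centralizer ((E.map σ.toMonoidHom : Subgroup G) : Set G) ↔
      x ∈ Subgroup.centralizer (E : Set G) := by
    intro E x
    simp only [Subgroup.mem_centralizer_iff]
    constructor
    · intro h y hy
      apply σ.injective
      rw [map_mul, map_mul]
      exact h _ ⟨y, hy, rfl⟩
    · rintro h _ ⟨y, hy, rfl⟩
      have := congrArg σ (h y hy)
      rwa [map_mul, map_mul] at this
  refine ⟨?_, fun F₀ h0 hJ => ?_⟩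
  · rintro _ ⟨x, hx, rfl⟩
    exact (hc F x).2 (h.1 hx)
  · have h1 : (F₀.comap σ.toMonoidHom).map σ.toMonoidHom = F₀ :=
      Subgroup.map_comap_eq_self_of_surjective σ.surjective _
    intro x hx
    obtain ⟨x, rfl⟩ := σ.surjective x
    rw [hc]
    refine h.2 (F₀.comap σ.toMonoidHom) ?_ ?_ ?_
    · intro y hy
      obtain ⟨z, hz, hzy⟩ := h0 hy
      rwa [← σ.injective hzy]
    · rwa [Subgroup.relIndex_comap]
    · rw [← hc, h1]; exact hx

/-- two fans inside a subgroup with an abelian subgroup of small index commute -/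
theorem IsJFan.le_centralizer [Finite G] {H A F F' : Subgroup G}
    (hA : A ≤ Subgroup.centralizer (A : Set G)) (hJ : A.relIndex H ≤ J)
    (h : IsJFan J F) (h' : IsJFan J F') (hF : F ≤ H) (hF' : F' ≤ H) :
    F ≤ Subgroup.centralizer (F' : Set G) := by
  have aux : ∀ E : Subgroup G, IsJFan J E → E ≤ H →
      Subgroup.centralizer (A : Set G) ≤ Subgroup.centralizer (E : Set G) := by
    intro E hE hle
    refine le_trans (Subgroup.centralizer_le (show ((A ⊓ E : Subgroup G) : Set G) ⊆ A from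
      fun x hx => hx.1)) (hE.2 _ inf_le_right ?_)
    rw [Subgroup.inf_relIndex_right]
    exact (Subgroup.relIndex_le_of_le_right hle Subgroup.index_ne_zero_of_finite).trans hJ
  exact le_trans (Subgroup.le_centralizer_iff.1 (hA.trans (aux F h hF))) (aux F' h' hF')

/-- a chain condition on centralizers produces fans of bounded index -/
theorem exists_isJFan_le [Finite G] (c : Subgroup G → ℕ)
    (hc : ∀ A₁ A₀ : Subgroup G, A₁ ≤ A₀ →
      ¬ Subgroup.centralizer (A₁ : Set G) ≤ Subgroup.centralizer (A₀ : Set G) → c A₁ < c A₀)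
    (hJ : 1 ≤ J) (l : ℕ) : ∀ A : Subgroup G, A ≤ Subgroup.centralizer (A : Set G) → c A ≤ l →
      ∃ F : Subgroup G, F ≤ A ∧ IsJFan J F ∧ F.relIndex A ≤ J ^ l := by
  induction l with
  | zero =>
    intro A hA hl
    refine ⟨A, le_rfl, ⟨hA, fun F₀ h0 _ => ?_⟩, by simp⟩
    by_contra h
    have := hc F₀ A h0 h
    omega
  | succ l ih =>
    intro A hA hl
    by_cases h : IsJFan J A
    · exact ⟨A, le_rfl, h, by rw [Subgroup.relIndex_self]; exact Nat.one_le_pow _ _ hJ⟩
    · simp only [IsJFan, hA, true_and, not_forall] at h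
      obtain ⟨F₀, h0, h1, h2⟩ := h
      obtain ⟨F, hF, hF1, hF2⟩ := ih F₀ (h0.trans (hA.trans (Subgroup.centralizer_le h0)))
        (by have := hc F₀ A h0 h2; omega)
      refine ⟨F, hF.trans h0, hF1, ?_⟩
      rw [← Subgroup.relIndex_mul_relIndex F F₀ A hF h0, pow_succ]
      exact Nat.mul_le_mul hF2 h1

/-- the largest fan of a subgroup with an abelian subgroup of small index -/
theorem exists_largest_isJFan [Finite G] (c : Subgroup G → ℕ)
    (hc : ∀ A₁ A₀ : Subgroup G, A₁ ≤ A₀ →
      ¬ Subgroup.centralizer (A₁ : Set G) ≤ Subgroup.centralizer (A₀ : Set G) → c A₁ < c A₀)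
    (hJ : 1 ≤ J) {l : ℕ} (hl : ∀ A, c A ≤ l) {H A : Subgroup G}
    (hA : A ≤ Subgroup.centralizer (A : Set G)) (hAJ : A.relIndex H ≤ J) :
    ∃ Φ : Subgroup G, Φ ≤ H ∧ IsJFan J Φ ∧ Φ.relIndex H ≤ J ^ (l + 1) ∧
      ∀ F : Subgroup G, IsJFan J F → F ≤ H → F ≤ Φ := by
  obtain ⟨F, hF, hF1, hF2⟩ := exists_isJFan_le c hc hJ l (A ⊓ H)
    (inf_le_left.trans (hA.trans (Subgroup.centralizer_le fun x hx => hx.1))) (hl _)
  obtain ⟨Φ, hΦ, hmax⟩ := exists_maximal_of_wellFoundedGT
    (fun E : Subgroup G => IsJFan J E ∧ E ≤ H) ⟨F, hF1, hF.trans inf_le_right⟩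
  have hall : ∀ E : Subgroup G, IsJFan J E → E ≤ H → E ≤ Φ := by
    intro E hE hEH
    exact le_sup_right.trans (hmax ⟨hΦ.1.sup hE (hΦ.1.le_centralizer hA hAJ hE hΦ.2 hEH),
      sup_le hΦ.2 hEH⟩ le_sup_left)
  refine ⟨Φ, hΦ.2, hΦ.1, ?_, hall⟩
  refine (Subgroup.relIndex_le_of_le_left (hall F hF1 (hF.trans inf_le_right))
    Subgroup.index_ne_zero_of_finite).trans ?_
  rw [← Subgroup.relIndex_mul_relIndex F (A ⊓ H) H hF inf_le_right, pow_succ,
    Subgroup.inf_relIndex_right]
  exact Nat.mul_le_mul hF2 hAJ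


/-- `g` is *associated* with the fan `F`: it is maximal among the fans centralized by `g` -/
def JFanAssoc (J : ℕ) (F : Subgroup G) (g : G) : Prop :=
  IsJFan J F ∧ g ∈ Subgroup.centralizer (F : Set G) ∧ ∀ F' : Subgroup G, IsJFan J F' → F ≤ F' →
    g ∈ Subgroup.centralizer (F' : Set G) → F' ≤ F

theorem mem_centralizer_map_equiv_iff (σ : G ≃* G) (E : Subgroup G) (x : G) :
    σ x ∈ Subgroup.centralizer ((E.map σ.toMonoidHom : Subgroup G) : Set G) ↔
      x ∈ Subgroup.centralizer (E : Set G) := by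
  simp only [Subgroup.mem_centralizer_iff]
  constructor
  · intro h y hy
    apply σ.injective
    rw [map_mul, map_mul]
    exact h _ ⟨y, hy, rfl⟩
  · rintro h _ ⟨y, hy, rfl⟩
    have := congrArg σ (h y hy)
    rwa [map_mul, map_mul] at this

theorem JFanAssoc.map {F : Subgroup G} {g : G} (h : JFanAssoc J F g) (σ : G ≃* G) :
    JFanAssoc J (F.map σ.toMonoidHom) (σ g) := by
  refine ⟨h.1.map σ, (mem_centralizer_map_equiv_iff σ F g).2 h.2.1, fun F' h1 h2 h3 => ?_⟩
  have h4 := h.2.2 (F'.map σ.symm.toMonoidHom) (h1.map σ.symm)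
    (fun x hx => ⟨σ x, h2 ⟨x, hx, rfl⟩, σ.symm_apply_apply x⟩)
    (by
      have := (mem_centralizer_map_equiv_iff σ.symm F' (σ g)).2 h3
      rwa [σ.symm_apply_apply] at this)
  intro y hy
  exact ⟨σ.symm y, h4 ⟨y, hy, rfl⟩, σ.apply_symm_apply y⟩

theorem jFanAssoc_map_iff {F : Subgroup G} {g : G} (σ : G ≃* G) :
    JFanAssoc J (F.map σ.toMonoidHom) (σ g) ↔ JFanAssoc J F g := by
  refine ⟨fun h => ?_, fun h => h.map σ⟩
  have := h.map σ.symm
  rw [σ.symm_apply_apply, Subgroup.map_map] at this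
  have h2 : σ.symm.toMonoidHom.comp σ.toMonoidHom = MonoidHom.id G := by ext; simp
  rwa [h2, Subgroup.map_id] at this

theorem jFanAssoc_mul_iff_of_mem_center {F : Subgroup G} {g z : G} (hz : z ∈ Subgroup.center G) :
    JFanAssoc J F (g * z) ↔ JFanAssoc J F g := by
  have h : ∀ E : Subgroup G, g * z ∈ Subgroup.centralizer (E : Set G) ↔
      g ∈ Subgroup.centralizer (E : Set G) := fun E =>
    Subgroup.mul_mem_cancel_right _ (Subgroup.center_le_centralizer _ hz)
  simp only [JFanAssoc, h]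

theorem JFanAssoc.le_of_le_center [Finite G] {F Z : Subgroup G} {g : G} (h : JFanAssoc J F g)
    (hZ : Z ≤ Subgroup.center G) : Z ≤ F := by
  have h1 : F ≤ Subgroup.centralizer (Z : Set G) := by
    rw [Subgroup.le_centralizer_iff]
    exact hZ.trans (Subgroup.center_le_centralizer _)
  refine le_sup_right.trans (h.2.2 (F ⊔ Z) (h.1.sup (isJFan_of_le_center hZ) h1) le_sup_left ?_)
  have h2 : F ⊔ Z ≤ Subgroup.centralizer ({g} : Set G) := by
    refine sup_le ?_ (hZ.trans (Subgroup.center_le_centralizer _))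
    intro x hx
    rw [Subgroup.mem_centralizer_singleton_iff]
    exact h.2.1 x hx
  intro x hx
  exact Subgroup.mem_centralizer_singleton_iff.1 (h2 hx)

theorem card_dvd_card_filter_of_mul_mem [Fintype G] (H : Subgroup G) (S : G → Prop)
    [DecidablePred S] (h : ∀ x ∈ H, ∀ g, S g → S (x * g)) :
    Nat.card H ∣ (Finset.univ.filter S).card := by
  rw [Finset.card_filter]
  refine card_dvd_sum_of_card_stabilizer_dvd (Γ := H) _ (fun x g => ?_) fun g => ?_
  · have : S (x • g) ↔ S g := by
      refine ⟨fun h1 => ?_, h x x.2 g⟩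
      have := h _ (inv_mem x.2) _ h1
      rwa [Subgroup.smul_def, smul_eq_mul, inv_mul_cancel_left] at this
    simp only [this]
  · have : MulAction.stabilizer H g = ⊥ := by
      rw [eq_bot_iff]
      intro x hx
      rw [MulAction.mem_stabilizer_iff, Subgroup.smul_def, smul_eq_mul, mul_eq_right] at hx
      exact Subgroup.mem_bot.2 (Subtype.ext hx)
    rw [this, Subgroup.card_bot]
    exact one_dvd _

/-- the elements whose only fans are central -/
theorem card_dvd_mul_card_filter_of_center [Fintype G] {Z : Subgroup G}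
    (hZ : Z ≤ Subgroup.center G) {n N : ℕ} (hn : Nat.card (Z ⊓ commutator G : Subgroup G) ≤ n)
    (S : G → Prop) [DecidablePred S] (h1 : ∀ h g, S g → S (h * g * h⁻¹))
    (h2 : ∀ z ∈ Z, ∀ g, S g → S (g * z))
    (h3 : ∀ g, S g → Z.relIndex (Subgroup.centralizer ({g} : Set G)) ≤ N) :
    Nat.card G ∣ N.factorial * n.factorial * (Finset.univ.filter S).card := by
  have hc : ∀ (z : Z) (x : G), x * z = z * x := fun z x => Subgroup.mem_center_iff.1 (hZ z.2) x
  let act : MulAction (G × Z) G :=
    { smul := fun a g => a.1 * g * a.1⁻¹ * a.2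
      one_smul := fun g => by
        change (1 : G) * g * 1⁻¹ * ((1 : Z) : G) = g
        simp
      mul_smul := fun a b g => by
        change a.1 * b.1 * g * (a.1 * b.1)⁻¹ * ((a.2 : G) * b.2) =
          a.1 * (b.1 * g * b.1⁻¹ * b.2) * a.1⁻¹ * a.2
        rw [hc b.2 a.2, mul_assoc a.1 _ a.1⁻¹, mul_assoc (b.1 * g * b.1⁻¹), ← hc b.2 a.1⁻¹]
        group }
  have hsm : ∀ (a : G × Z) (g : G), a • g = a.1 * g * a.1⁻¹ * a.2 := fun _ _ => rfl
  have key := card_dvd_sum_of_card_stabilizer_dvd (Γ := G × Z)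
    (fun g : G => if S g then Nat.card Z * (N.factorial * n.factorial) else 0) (fun a g => ?_)
    (fun g => ?_)
  · rw [← Finset.sum_filter, Finset.sum_const, smul_eq_mul, Nat.card_prod, mul_comm (Nat.card G),
      mul_comm (Finset.card _), mul_assoc] at key
    exact Nat.dvd_of_mul_dvd_mul_left Nat.card_pos key
  · have : S (a • g) ↔ S g := by
      refine ⟨fun h => ?_, fun h => h2 _ a.2.2 _ (h1 _ _ h)⟩
      have h4 := h1 a.1⁻¹ _ (h2 _ (inv_mem a.2.2) _ h)
      rw [hsm] at h4
      simpa [mul_assoc] using h4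
    simp only [this]
  · split_ifs with hg
    swap
    · exact dvd_zero _
    let φ : MulAction.stabilizer (G × Z) g →* Z :=
      (MonoidHom.snd G Z).comp (MulAction.stabilizer (G × Z) g).subtype
    have hker : Nat.card φ.ker = Nat.card (Subgroup.centralizer ({g} : Set G)) := by
      refine Nat.card_congr
        { toFun := fun a => ⟨a.1.1.1, ?_⟩
          invFun := fun h => ⟨⟨(h.1, 1), ?_⟩, rfl⟩
          left_inv := fun a => Subtype.ext (Subtype.ext (Prod.ext rfl a.2.symm))
          right_inv := fun h => rfl }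
      · have h4 : a.1.1 • g = g := a.1.2
        have h5 : a.1.1.2 = 1 := a.2
        rw [hsm, h5] at h4
        rw [Subgroup.mem_centralizer_singleton_iff]
        simp only [OneMemClass.coe_one, mul_one] at h4
        exact mul_inv_eq_iff_eq_mul.1 h4
      · have h4 := Subgroup.mem_centralizer_singleton_iff.1 h.2
        rw [MulAction.mem_stabilizer_iff, hsm]
        simp only [OneMemClass.coe_one, mul_one]
        rw [h4, mul_inv_cancel_right]
    have hran : Nat.card φ.range ≤ n := by
      refine le_trans (Nat.card_le_card_of_injective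
        (fun z : φ.range => (⟨z.1.1, z.1.2, ?_⟩ : (Z ⊓ commutator G : Subgroup G))) ?_) hn
      · obtain ⟨a, ha⟩ := z.2
        have h4 : a.1 • g = g := a.2
        rw [hsm] at h4
        have h5 : (z.1.1 : G) = ⁅a.1.1, g⁻¹⁆ * 1 := by
          rw [← ha]
          change (a.1.2 : G) = _
          rw [commutatorElement_def, mul_one, inv_inv]
          calc (a.1.2 : G) = (a.1.1 * g * a.1.1⁻¹)⁻¹ * (a.1.1 * g * a.1.1⁻¹ * a.1.2) := by group
            _ = _ := by rw [h4]; group
        rw [mul_one] at h5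
        change z.1.1 ∈ commutator G
        rw [h5]
        exact Subgroup.commutator_mem_commutator (Subgroup.mem_top _) (Subgroup.mem_top _)
      · intro a b hab
        exact Subtype.ext (Subtype.ext (Subtype.mk.inj hab))
    rw [← φ.ker.card_mul_index, Subgroup.index_ker, hker,
      ← (Z.subgroupOf (Subgroup.centralizer ({g} : Set G))).card_mul_index,
      Nat.card_congr (Subgroup.subgroupOfEquivOfLe
        (hZ.trans (Subgroup.center_le_centralizer _))).toEquiv, mul_assoc]
    refine Nat.mul_dvd_mul_left _ (Nat.mul_dvd_mul ?_ (Nat.dvd_factorial Nat.card_pos hran))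
    exact Nat.dvd_factorial (Nat.pos_of_ne_zero Subgroup.index_ne_zero_of_finite) (h3 g hg)


/-- Jordan's counting argument -/
theorem exists_bound_jordan_fan (J l n : ℕ) (hJ : 1 ≤ J) : ∃ B : ℕ,
    ∀ (G : Type u) [Group G] [Finite G] (Z : Subgroup G), Z ≤ Subgroup.center G →
      Nat.card (Z ⊓ commutator G : Subgroup G) ≤ n → ∀ c : Subgroup G → ℕ, (∀ A, c A ≤ l) →
      (∀ A₁ A₀ : Subgroup G, A₁ ≤ A₀ →
        ¬ Subgroup.centralizer (A₁ : Set G) ≤ Subgroup.centralizer (A₀ : Set G) → c A₁ < c A₀) →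
      (∀ E : Subgroup G, E ≤ Subgroup.centralizer (E : Set G) → ¬ E ≤ Z →
        ∃ A : Subgroup G, A ≤ Subgroup.centralizer (A : Set G) ∧
          A.relIndex (Subgroup.normalizer (E : Set G)) ≤ J) →
      ∃ A : Subgroup G, A.Normal ∧ A ≤ Subgroup.centralizer (A : Set G) ∧ A.index ≤ B := by
  classical
  set N := J ^ (l + 1) with hN
  set D := N.factorial * n.factorial with hD
  have hD0 : 0 < D := Nat.mul_pos (Nat.factorial_pos _) (Nat.factorial_pos _)
  obtain ⟨B, hB⟩ := exists_bound_of_dvd_mul_sum_sub_one.{u} (2 * N) D hD0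
  refine ⟨max B N, fun G _ _ Z hZ hn c hl hc hab => ?_⟩
  let _ : Fintype G := Fintype.ofFinite G
  let _ : Fintype (Subgroup G) := Fintype.ofFinite _
  have hZn : Z.Normal := ⟨fun z hz g => by
    rw [Subgroup.mem_center_iff.1 (hZ hz) g, mul_inv_cancel_right]; exact hz⟩
  -- the largest fan in the normalizer of a fan
  have hΦN : ∀ F : Subgroup G, IsJFan J F → ¬ F ≤ Z → ∃ Φ : Subgroup G,
      Φ ≤ Subgroup.normalizer (F : Set G) ∧ IsJFan J Φ ∧
      Φ.relIndex (Subgroup.normalizer (F : Set G)) ≤ N ∧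
      ∀ F' : Subgroup G, IsJFan J F' → F' ≤ Subgroup.normalizer (F : Set G) → F' ≤ Φ := by
    intro F hF hFZ
    obtain ⟨A, hA, hAJ⟩ := hab F hF.1 hFZ
    exact exists_largest_isJFan c hc hJ hl hA hAJ
  -- the fan associated with a non-central element
  have hΦg : ∀ g : G, g ∉ Z → ∃ Φ : Subgroup G,
      Φ.relIndex (Subgroup.centralizer ({g} : Set G)) ≤ N ∧
      ∀ F : Subgroup G, JFanAssoc J F g ↔ F = Φ := by
    intro g hg
    have h1 : Subgroup.zpowers g ≤ Subgroup.centralizer (Subgroup.zpowers g : Set G) := by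
      rintro _ ⟨a, rfl⟩ _ ⟨b, rfl⟩
      exact (zpow_add g b a).symm.trans ((add_comm b a) ▸ zpow_add g a b)
    obtain ⟨A, hA, hAJ⟩ := hab _ h1 (fun h => hg (h (Subgroup.mem_zpowers g)))
    have h2 : Subgroup.centralizer ({g} : Set G) ≤
        Subgroup.normalizer (Subgroup.zpowers g : Set G) := by
      refine le_trans ?_ (Subgroup.centralizer_le_normalizer _)
      rw [Subgroup.zpowers_eq_closure, Subgroup.centralizer_closure]
    obtain ⟨Φ, h3, h4, h5, h6⟩ := exists_largest_isJFan c hc hJ hl hA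
      ((Subgroup.relIndex_le_of_le_right h2 Subgroup.index_ne_zero_of_finite).trans hAJ)
    have h7 : ∀ F : Subgroup G, g ∈ Subgroup.centralizer (F : Set G) ↔
        F ≤ Subgroup.centralizer ({g} : Set G) := by
      intro F
      simp only [SetLike.le_def, Subgroup.mem_centralizer_singleton_iff]
      exact Subgroup.mem_centralizer_iff
    refine ⟨Φ, h5, fun F => ⟨fun h => ?_, ?_⟩⟩
    · have h8 := h6 F h.1 ((h7 F).1 h.2.1)
      exact le_antisymm h8 (h.2.2 Φ h4 h8 ((h7 Φ).2 h3))
    · rintro rfl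
      exact ⟨h4, (h7 F).2 h3, fun F' h8 _ h9 => h6 F' h8 ((h7 F').1 h9)⟩
  let act : MulAction G (Subgroup G) :=
    { smul := fun g F => F.map (MulAut.conj g).toMonoidHom
      one_smul := fun F => by
        change F.map (MulAut.conj (1 : G)).toMonoidHom = F
        rw [map_one]
        exact Subgroup.map_id F
      mul_smul := fun a b F => by
        change F.map (MulAut.conj (a * b)).toMonoidHom =
          (F.map (MulAut.conj b).toMonoidHom).map (MulAut.conj a).toMonoidHom
        rw [Subgroup.map_map, map_mul]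
        rfl }
  have hsm : ∀ (g : G) (F : Subgroup G), g • F = F.map (MulAut.conj g).toMonoidHom :=
    fun _ _ => rfl
  have hstab : ∀ F : Subgroup G, MulAction.stabilizer G F = Subgroup.normalizer (F : Set G) := by
    intro F
    ext g
    rw [MulAction.mem_stabilizer_iff, hsm, ← Subgroup.conjAct_pointwise_smul_iff]
    rfl
  have hZfix : ∀ g : G, g • Z = Z := fun g => by
    rw [← MulAction.mem_stabilizer_iff, hstab, Subgroup.normalizer_eq_top]
    exact Subgroup.mem_top _
  have hZiff : ∀ (g : G) (F : Subgroup G), g • F = Z ↔ F = Z := fun g F => by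
    conv_lhs => rw [← hZfix g]
    exact smul_left_cancel_iff g
  have hT : ∀ (g : G) (F : Subgroup G) (x : G),
      JFanAssoc J (g • F) (g * x * g⁻¹) ↔ JFanAssoc J F x :=
    fun g F x => jFanAssoc_map_iff (MulAut.conj g)
  have hT1 : ∀ (g : G) (F : Subgroup G), JFanAssoc J (g • F) 1 ↔ JFanAssoc J F 1 := by
    intro g F
    have := hT g F 1
    rwa [mul_one, mul_inv_cancel] at this
  have hTz : ∀ (F : Subgroup G), ∀ z ∈ Z, JFanAssoc J F z ↔ JFanAssoc J F 1 := by
    intro F z hz
    have := jFanAssoc_mul_iff_of_mem_center (J := J) (F := F) (g := 1) (hZ hz)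
    rwa [one_mul] at this
  set a : Subgroup G → ℕ := fun F =>
    (Finset.univ.filter fun g => JFanAssoc J F g ∧ g ∉ Z).card with ha
  set t : Subgroup G → ℕ := fun F => (Finset.univ.filter fun g => JFanAssoc J F g).card with ht
  have hZcard : (Finset.univ.filter fun g => g ∈ Z).card = Nat.card Z := by
    rw [Nat.card_eq_fintype_card, Fintype.card_subtype]
  have hta : ∀ F, t F = a F + (if JFanAssoc J F 1 then Nat.card Z else 0) := by
    intro F
    simp only [ht, ha]
    rw [← Finset.card_filter_add_card_filter_not (s := Finset.univ.filter fun g => JFanAssoc J F g)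
      (fun g => g ∉ Z), Finset.filter_filter, Finset.filter_filter]
    congr 1
    split_ifs with h1
    · rw [← hZcard]
      congr 1
      ext g
      simp only [Finset.mem_filter, Finset.mem_univ, true_and, not_not]
      exact ⟨fun h => h.2, fun h => ⟨(hTz F g h).2 h1, h⟩⟩
    · rw [Finset.card_eq_zero, Finset.filter_eq_empty_iff]
      intro g _ h
      exact h1 ((hTz F g (not_not.1 h.2)).1 h.1)
  have hainv : ∀ (g : G) (F : Subgroup G), a (g • F) = a F := by
    intro g F
    symm
    refine Finset.card_equiv (MulAut.conj g).toEquiv fun x => ?_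
    simp only [Finset.mem_filter, Finset.mem_univ, true_and]
    change _ ↔ JFanAssoc J (g • F) (g * x * g⁻¹) ∧ g * x * g⁻¹ ∉ Z
    rw [hT, hZn.mem_comm_iff, inv_mul_cancel_left]
  have hsuma : ∑ F, a F + Nat.card Z = Nat.card G := by
    simp only [ha, Finset.card_filter]
    rw [Finset.sum_comm, ← hZcard, Finset.card_filter, ← Finset.sum_add_distrib,
      Nat.card_eq_fintype_card, ← Finset.card_univ, Finset.card_eq_sum_ones]
    refine Finset.sum_congr rfl fun g _ => ?_
    by_cases hg : g ∈ Z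
    · simp [hg]
    · obtain ⟨Φ, -, h⟩ := hΦg g hg
      simp [hg, h]
  -- the two divisibilities
  have hdvd1 : Nat.card G ∣ ∑ F : Subgroup G, if F = Z then 0 else D * t F := by
    refine card_dvd_sum_of_card_stabilizer_dvd (Γ := G) _ (fun g F => ?_) fun F => ?_
    · simp only [hZiff, hta, hainv, hT1]
    · split_ifs with hF
      · exact dvd_zero _
      rcases (Finset.univ.filter fun g => JFanAssoc J F g).eq_empty_or_nonempty with h0 | ⟨g, hg⟩
      · simp only [ht, h0, Finset.card_empty, mul_zero, dvd_zero]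
      have hg' := (Finset.mem_filter.1 hg).2
      have hFZ : ¬ F ≤ Z := fun h => hF (le_antisymm h (hg'.le_of_le_center hZ))
      obtain ⟨Φ, h1, h2, h3, h4⟩ := hΦN F hg'.1 hFZ
      have h5 : F ≤ Φ := h4 F hg'.1 Subgroup.le_normalizer
      have h6 : Nat.card Φ ∣ t F := by
        refine card_dvd_card_filter_of_mul_mem Φ _ fun x hx y hy => ?_
        refine ⟨hy.1, mul_mem (Subgroup.centralizer_le h5 (h2.1 hx)) hy.2.1,
          fun F' h7 h8 h9 => hy.2.2 F' h7 h8 ?_⟩
        have h10 : F' ≤ Φ := h4 F' h7 (h7.1.trans ((Subgroup.centralizer_le h8).trans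
          (Subgroup.centralizer_le_normalizer _)))
        exact (Subgroup.mul_mem_cancel_left _ (Subgroup.centralizer_le h10 (h2.1 hx))).1 h9
      rw [hstab, ← (Φ.subgroupOf (Subgroup.normalizer (F : Set G))).index_mul_card,
        Nat.card_congr (Subgroup.subgroupOfEquivOfLe h1).toEquiv]
      refine Nat.mul_dvd_mul (Dvd.dvd.mul_right ?_ _) h6
      exact Nat.dvd_factorial (Nat.pos_of_ne_zero Subgroup.index_ne_zero_of_finite) h3
  have hdvd2 : Nat.card G ∣ D * a Z := by
    refine card_dvd_mul_card_filter_of_center hZ hn _ (fun h g hg => ⟨?_, ?_⟩)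
      (fun z hz g hg => ⟨?_, ?_⟩) fun g hg => ?_
    · rw [← hZfix h, hT]; exact hg.1
    · rw [hZn.mem_comm_iff, inv_mul_cancel_left]; exact hg.2
    · exact (jFanAssoc_mul_iff_of_mem_center (hZ hz)).2 hg.1
    · rw [Subgroup.mul_mem_cancel_right _ hz]; exact hg.2
    · obtain ⟨Φ, h1, h2⟩ := hΦg g hg.2
      rwa [(h2 Z).1 hg.1]
  -- maximal fans
  let _ : Fintype (MulAction.orbitRel.Quotient G (Subgroup G)) := Fintype.ofFinite _
  set s : Finset (MulAction.orbitRel.Quotient G (Subgroup G)) :=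
    Finset.univ.filter fun o => JFanAssoc J (Quotient.out o) 1 ∧ Quotient.out o ≠ Z with hs
  set r : MulAction.orbitRel.Quotient G (Subgroup G) → ℕ := fun o =>
    (Subgroup.normalizer ((Quotient.out o : Subgroup G) : Set G)).index with hr
  have hR : ∀ w : Subgroup G → ℕ, (∀ (g : G) F, w (g • F) = w F) →
      (∑ F : Subgroup G, if JFanAssoc J F 1 ∧ F ≠ Z then w F else 0) =
        ∑ o ∈ s, r o * w (Quotient.out o) := by
    intro w hw
    rw [sum_eq_sum_orbits_index (Γ := G) _ (fun g F => by simp only [ne_eq, hZiff, hT1, hw]),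
      hs, Finset.sum_filter]
    refine Finset.sum_congr rfl fun o _ => ?_
    rw [hstab]
    split_ifs <;> simp [hr]
  have hmaxidx : ∀ F : Subgroup G, JFanAssoc J F 1 → F ≠ Z →
      F.relIndex (Subgroup.normalizer (F : Set G)) ≤ N := by
    intro F h1 h2
    have hFZ : ¬ F ≤ Z := fun h => h2 (le_antisymm h (h1.le_of_le_center hZ))
    obtain ⟨Φ, -, h3, h4, h5⟩ := hΦN F h1.1 hFZ
    have h6 : F ≤ Φ := h5 F h1.1 Subgroup.le_normalizer
    rwa [le_antisymm (h1.2.2 Φ h3 h6 (one_mem _)) h6] at h4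
  have hcard : s.card ≤ 2 * N := by
    have h1 : ∀ o ∈ s, Nat.card G ≤ 2 * N * (r o * a (Quotient.out o)) := by
      intro o ho
      obtain ⟨h2, h3⟩ := (Finset.mem_filter.1 ho).2
      set F : Subgroup G := Quotient.out o with hF
      have h4 : Nat.card F ≤ t F := by
        rw [Nat.card_eq_fintype_card, Fintype.card_subtype]
        refine Finset.card_le_card fun x hx => ?_
        simp only [Finset.mem_filter, Finset.mem_univ, true_and] at hx ⊢
        exact ⟨h2.1, h2.1.1 hx, fun F' h5 h6 _ => h2.2.2 F' h5 h6 (one_mem _)⟩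
      have h5 : 2 * Nat.card Z ≤ Nat.card F := by
        have h6 : Z ≤ F := h2.le_of_le_center hZ
        rw [← (Z.subgroupOf F).index_mul_card,
          Nat.card_congr (Subgroup.subgroupOfEquivOfLe h6).toEquiv]
        refine Nat.mul_le_mul_right _ ?_
        have h7 : (Z.subgroupOf F).index ≠ 0 := Subgroup.index_ne_zero_of_finite
        have h8 : (Z.subgroupOf F).index ≠ 1 := fun h =>
          h3 (le_antisymm (Subgroup.relIndex_eq_one.1 h) h6)
        omega
      have h6 := hta F
      rw [if_pos h2] at h6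
      have h7 : Nat.card F ≤ 2 * a F := by omega
      calc Nat.card G = r o * (F.relIndex (Subgroup.normalizer (F : Set G)) * Nat.card F) := by
            rw [← F.index_mul_card, ← Subgroup.relIndex_mul_index (Subgroup.le_normalizer (H := F))]
            simp only [hr, ← hF]
            ring
        _ ≤ r o * (N * (2 * a F)) :=
            Nat.mul_le_mul_left _ (Nat.mul_le_mul (hmaxidx F h2 h3) h7)
        _ = _ := by ring
    have h2 : s.card * Nat.card G ≤ 2 * N * Nat.card G := by
      calc s.card * Nat.card G ≤ ∑ o ∈ s, 2 * N * (r o * a (Quotient.out o)) := by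
            have := Finset.card_nsmul_le_sum s _ _ h1
            rwa [smul_eq_mul] at this
        _ = 2 * N * ∑ F : Subgroup G, if JFanAssoc J F 1 ∧ F ≠ Z then a F else 0 := by
            rw [hR a hainv, Finset.mul_sum]
        _ ≤ 2 * N * Nat.card G := by
            refine Nat.mul_le_mul_left _ (le_trans (Finset.sum_le_sum fun F _ => ?_)
              ((Nat.le_add_right _ _).trans hsuma.le))
            split_ifs
            · exact le_rfl
            · exact Nat.zero_le _
    exact Nat.le_of_mul_le_mul_right h2 Nat.card_pos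
  have hmain : (Z.index : ℤ) ∣ D * ((∑ o ∈ s, r o : ℕ) - 1 : ℤ) := by
    have h1 : (∑ F : Subgroup G, if F = Z then 0 else D * t F) + D * a Z =
        D * (∑ F, a F + (∑ o ∈ s, r o) * Nat.card Z) := by
      rw [Finset.sum_mul, ← hR (fun _ => Nat.card Z) (fun _ _ => rfl), ← Finset.sum_add_distrib,
        Finset.mul_sum]
      have h2 : D * a Z = ∑ F : Subgroup G, if F = Z then D * a F else 0 := by simp
      rw [h2, ← Finset.sum_add_distrib]
      refine Finset.sum_congr rfl fun F _ => ?_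
      by_cases hF : F = Z
      · simp [hF]
      · simp [hF, hta]
    have h2 : Nat.card G ∣ D * (∑ F, a F + (∑ o ∈ s, r o) * Nat.card Z) :=
      h1 ▸ dvd_add hdvd1 hdvd2
    have h3 : (Nat.card G : ℤ) ∣ D * ((∑ o ∈ s, r o : ℕ) - 1 : ℤ) * Nat.card Z := by
      have h4 : (D * ((∑ o ∈ s, r o : ℕ) - 1 : ℤ) * Nat.card Z : ℤ) =
          ((D * (∑ F, a F + (∑ o ∈ s, r o) * Nat.card Z) : ℕ) : ℤ) - D * Nat.card G := by
        rw [← hsuma]; push_cast; ring
      rw [h4]
      exact dvd_sub (Int.natCast_dvd_natCast.2 h2) (dvd_mul_left _ _)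
    rw [← Z.index_mul_card, Nat.cast_mul] at h3
    exact Int.dvd_of_mul_dvd_mul_right (Nat.cast_ne_zero.2 Nat.card_pos.ne') h3
  rcases hB s r Z.index hcard (Nat.pos_of_ne_zero Subgroup.index_ne_zero_of_finite)
    (fun o ho => Subgroup.index_dvd_of_le (hZ.trans (Subgroup.center_le_normalizer _))) hmain
    with h | ⟨o, ho, h⟩
  · exact ⟨Z, hZn, hZ.trans (Subgroup.center_le_centralizer _), h.trans (le_max_left _ _)⟩
  · obtain ⟨h2, h3⟩ := (Finset.mem_filter.1 ho).2
    have h4 := Subgroup.index_eq_one.1 h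
    refine ⟨_, Subgroup.normalizer_eq_top_iff.1 h4, h2.1.1, le_trans ?_ (le_max_right _ _)⟩
    have h5 := hmaxidx _ h2 h3
    rwa [h4, Subgroup.relIndex_top_right] at h5

end fan

end Cfsg
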