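import Cfsg.Agent.CT.JordanFan

/-! The Brauer-Feit analogue of Jordan's theorem in characteristic `p`, by Jordan's counting
argument. -/

set_option autoImplicit false

namespace Cfsg

open scoped Pointwise commutatorElement

universe u v w

theorem card_le_pow_of_isPGroup_of_dvd {P : Type u} [Group P] [Finite P] {p m n : ℕ}
    [Fact p.Prime] (hP : IsPGroup p P) (hn : n ≠ 0) (hd : Nat.card P ∣ n)
    (hm : n.factorization p ≤ m) : Nat.card P ≤ p ^ m := by
  have hp : p.Prime := Fact.out
  obtain ⟨j, hj⟩ := IsPGroup.iff_card.1 hP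
  rw [hj] at hd ⊢
  exact Nat.pow_le_pow_right hp.pos (((hp.pow_dvd_iff_le_factorization hn).1 hd).trans hm)

/-- an abelian subgroup of bounded index in an (exponent `p`)-by-abelian subgroup -/
theorem exists_abelian_index_le_of_commutator_mem {H : Type u} [Group H] [Finite H] {p m : ℕ}
    [Fact p.Prime] (hm : (Nat.card H).factorization p ≤ m) (B K : Subgroup H) [hK : K.Normal]
    (hKp : ∀ x ∈ K, x ^ p = 1) (hB : ∀ x ∈ B, ∀ y ∈ B, ⁅x, y⁆ ∈ K) :
    ∃ A : Subgroup H, A ≤ Subgroup.centralizer (A : Set H) ∧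
      A.index ≤ p ^ m * (B.index * (p ^ m) ^ p ^ m) := by
  have hp : p.Prime := Fact.out
  have hH0 : Nat.card H ≠ 0 := Nat.card_pos.ne'
  have hKc : Nat.card K ≤ p ^ m :=
    card_le_pow_of_isPGroup_of_dvd (fun x => ⟨1, Subtype.ext (by simpa using hKp x x.2)⟩) hH0
      K.card_subgroup_dvd_card hm
  have hCK : (Subgroup.centralizer (K : Set H)).index ≤ (p ^ m) ^ p ^ m := by
    refine (index_le_card_of_fibers _
      (fun (g : H) (k : K) => (⟨g * k * g⁻¹, hK.conj_mem _ k.2 g⟩ : K)) fun x y h => ?_).trans ?_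
    · intro k hk
      have h1 : x * k * x⁻¹ = y * k * y⁻¹ := congrArg Subtype.val (congrFun h ⟨k, hk⟩)
      calc k * (x⁻¹ * y) = x⁻¹ * (x * k * x⁻¹) * y := by group
        _ = x⁻¹ * y * k := by rw [h1]; group
    · rw [Nat.card_fun]
      exact (Nat.pow_le_pow_left hKc _).trans
        (Nat.pow_le_pow_right (Nat.pow_pos hp.pos) hKc)
  set C := B ⊓ Subgroup.centralizer (K : Set H) with hC
  have hpow : ∀ c : C, c ^ p ∈ Subgroup.center C := by
    intro c
    rw [Subgroup.mem_center_iff]
    intro d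
    apply Subtype.ext
    have hz := hB c c.2.1 d d.2.1
    have hzc : Commute ⁅(c : H), (d : H)⁆ c := c.2.2 _ hz
    have key : ∀ k : ℕ, (c : H) ^ k * d = ⁅(c : H), (d : H)⁆ ^ k * d * c ^ k := by
      intro k
      induction k with
      | zero => simp
      | succ k ih =>
        have h1 : (c : H) * d = ⁅(c : H), (d : H)⁆ * d * c := by
          rw [commutatorElement_def]; group
        rw [pow_succ', mul_assoc, ih, ← mul_assoc, ← mul_assoc, ← (hzc.pow_left k).eq,
          mul_assoc _ (c : H), h1, pow_succ _ k]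
        simp only [mul_assoc]
    have h2 := key p
    rw [hKp _ hz, one_mul] at h2
    simpa using h2.symm
  have hq : IsPGroup p (C ⧸ Subgroup.center C) := by
    intro x
    obtain ⟨c, rfl⟩ := QuotientGroup.mk_surjective x
    exact ⟨1, by rw [pow_one, ← QuotientGroup.mk_pow, QuotientGroup.eq_one_iff]; exact hpow c⟩
  have hidx : (Subgroup.center C).index ≤ p ^ m :=
    card_le_pow_of_isPGroup_of_dvd hq hH0
      ((Subgroup.center C).index_dvd_card.trans C.card_subgroup_dvd_card) hm
  refine ⟨(Subgroup.center C).map C.subtype, ?_, ?_⟩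
  · rintro _ ⟨x, hx, rfl⟩ _ ⟨y, -, rfl⟩
    exact congrArg Subtype.val (Subgroup.mem_center_iff.1 hx y)
  · rw [Subgroup.index_map_subtype]
    exact Nat.mul_le_mul hidx (Subgroup.index_inf_le.trans (Nat.mul_le_mul_left _ hCK))

section linear
variable {G : Type u} [Group G] {K : Type v} [Field K] {V : Type w} [AddCommGroup V] [Module K V]
  [FiniteDimensional K V]

/-- a commuting family of endomorphisms has a common eigenvector -/
theorem exists_common_eigenvector [IsAlgClosed K] [Nontrivial V] (S : Set (Module.End K V))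
    (hS : ∀ f ∈ S, ∀ g ∈ S, f * g = g * f) :
    ∃ v : V, v ≠ 0 ∧ ∀ f ∈ S, ∃ c : K, f v = c • v := by
  obtain ⟨U, hU, hmin⟩ := exists_minimal_of_wellFoundedLT
    (fun U : Submodule K V => U ≠ ⊥ ∧ ∀ f ∈ S, ∀ v ∈ U, f v ∈ U)
    ⟨⊤, top_ne_bot, fun _ _ _ _ => Submodule.mem_top⟩
  obtain ⟨v, hv, hv0⟩ := (Submodule.ne_bot_iff U).1 hU.1
  refine ⟨v, hv0, fun f hf => ?_⟩
  have : Nontrivial U := Submodule.nontrivial_iff_ne_bot.2 hU.1
  obtain ⟨c, hc⟩ := Module.End.exists_eigenvalue (f.restrict (hU.2 f hf))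
  obtain ⟨x, hx⟩ := hc.exists_hasEigenvector
  have h1 : U ≤ U ⊓ Module.End.eigenspace f c := by
    refine hmin ⟨?_, fun g hg y hy => ⟨hU.2 g hg y hy.1, ?_⟩⟩ inf_le_left
    · rw [Submodule.ne_bot_iff]
      refine ⟨x, ⟨x.2, ?_⟩, fun h => hx.2 (Subtype.ext h)⟩
      rw [SetLike.mem_coe, Module.End.mem_eigenspace_iff]
      exact congrArg Subtype.val hx.apply_eq_smul
    · have h2 : f y = c • y := Module.End.mem_eigenspace_iff.1 hy.2
      rw [SetLike.mem_coe, Module.End.mem_eigenspace_iff, ← Module.End.mul_apply, hS f hf g hg,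
        Module.End.mul_apply, h2, map_smul]
  exact ⟨c, Module.End.mem_eigenspace_iff.1 (h1 hv).2⟩

/-- the normalizer of a non-scalar abelian subgroup has a reducible subgroup of small index -/
theorem exists_reducible_relIndex_le [IsAlgClosed K] (ρ : Representation K G V) (E : Subgroup G)
    (hE : E ≤ Subgroup.centralizer (E : Set G)) (hns : ∃ e ∈ E, ∀ c : K, ρ e ≠ c • 1) :
    ∃ (S : Subgroup G) (W : Submodule K V), S ≤ Subgroup.normalizer (E : Set G) ∧
      S.relIndex (Subgroup.normalizer (E : Set G)) ≤ Module.finrank K V ∧ W ≠ ⊥ ∧ W ≠ ⊤ ∧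
      ∀ g ∈ S, W ≤ W.comap (ρ g) := by
  classical
  obtain ⟨e₀, he₀, hns⟩ := hns
  have : Nontrivial V := by
    by_contra h
    rw [not_nontrivial_iff_subsingleton] at h
    exact hns 0 (Subsingleton.elim _ _)
  have hcomm : ∀ x ∈ E, ∀ y ∈ E, ρ x * ρ y = ρ y * ρ x := fun x hx y hy => by
    rw [← map_mul, ← map_mul, hE hy x hx]
  obtain ⟨v, hv0, hv⟩ := exists_common_eigenvector (ρ '' E) (by
    rintro _ ⟨x, hx, rfl⟩ _ ⟨y, hy, rfl⟩
    exact hcomm x hx y hy)
  have hv' : ∀ e : G, ∃ c : K, e ∈ E → ρ e v = c • v := by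
    intro e
    by_cases he : e ∈ E
    · obtain ⟨c, hc⟩ := hv _ ⟨e, he, rfl⟩
      exact ⟨c, fun _ => hc⟩
    · exact ⟨0, fun h => absurd h he⟩
  choose l hl using hv'
  let W : (E → K) → Submodule K V := fun μ => ⨅ e : E, Module.End.eigenspace (ρ e) (μ e)
  have hW : ∀ μ x, x ∈ W μ ↔ ∀ e : E, ρ e x = μ e • x := fun μ x => by
    simp only [W, Submodule.mem_iInf, Module.End.mem_eigenspace_iff]
  have hind : iSupIndep W := by
    refine (Module.End.independent_iInf_maxGenEigenspace_of_forall_mapsTo (fun e : E => ρ e)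
      fun i j φ => ?_).mono fun μ => iInf_mono fun e => ?_
    · exact Module.End.mapsTo_maxGenEigenspace_of_comm (hcomm j j.2 i i.2) φ
    · exact Module.End.eigenspace_le_maxGenEigenspace
  have hconj : ∀ g ∈ Subgroup.normalizer (E : Set G), ∀ e ∈ E, g⁻¹ * e * g ∈ E := by
    intro g hg e he
    have := (Subgroup.mem_normalizer_iff.1 (inv_mem hg) e).1 he
    rwa [inv_inv] at this
  have hmap : ∀ g ∈ Subgroup.normalizer (E : Set G), ∀ x ∈ W (fun e => l e),
      ρ g x ∈ W (fun e => l (g⁻¹ * e * g)) := by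
    intro g hg x hx
    rw [hW] at hx ⊢
    intro e
    have h1 := hx ⟨_, hconj g hg e e.2⟩
    calc ρ e (ρ g x) = ρ g (ρ (g⁻¹ * e * g) x) := by
          rw [← Module.End.mul_apply, ← Module.End.mul_apply, ← map_mul, ← map_mul]
          congr 2; group
      _ = _ := by rw [h1, map_smul]
  have hvW : v ∈ W (fun e => l e) := (hW _ _).2 fun e => hl e e.2
  let S : Subgroup G :=
    { carrier := {g | g ∈ Subgroup.normalizer (E : Set G) ∧ ∀ e ∈ E, l (g⁻¹ * e * g) = l e}
      one_mem' := ⟨one_mem _, fun e _ => by simp⟩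
      mul_mem' := fun {a b} ha hb => ⟨mul_mem ha.1 hb.1, fun e he => by
        rw [← ha.2 e he, ← hb.2 _ (hconj a ha.1 e he)]
        congr 1; group⟩
      inv_mem' := fun {a} ha => ⟨inv_mem ha.1, fun e he => by
        rw [← ha.2 _ (hconj a⁻¹ (inv_mem ha.1) e he)]
        congr 1; group⟩ }
  refine ⟨S, W (fun e => l e), fun g hg => hg.1, ?_, ?_, ?_, fun g hg x hx => ?_⟩
  · let _ := hind.fintypeNeBotOfFiniteDimensional
    refine (index_le_card_of_fibers _ (fun g : Subgroup.normalizer (E : Set G) =>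
      (⟨fun e => l ((g : G)⁻¹ * e * g), ?_⟩ : {μ // W μ ≠ ⊥})) fun x y h => ?_).trans ?_
    · rw [Submodule.ne_bot_iff]
      refine ⟨ρ g v, hmap g g.2 v hvW, fun h => hv0 ?_⟩
      have := congrArg (ρ (g : G)⁻¹) h
      rwa [map_zero, ← Module.End.mul_apply, ← map_mul, inv_mul_cancel, map_one,
        Module.End.one_apply] at this
    · refine ⟨(x⁻¹ * y).2, fun e he => ?_⟩
      have h1 := congrFun (Subtype.mk.inj h) ⟨_, hconj _ (inv_mem x.2) e he⟩
      simp only [inv_inv] at h1
      rw [show (x : G)⁻¹ * (x * e * (x : G)⁻¹) * x = e by group] at h1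
      rw [h1]
      congr 1
      simp only [Subgroup.coe_subtype, Subgroup.coe_mul, InvMemClass.coe_inv]
      group
    · rw [Nat.card_eq_fintype_card]
      exact hind.subtype_ne_bot_le_finrank
  · exact (Submodule.ne_bot_iff _).2 ⟨v, hvW, hv0⟩
  · intro h
    refine hns (l e₀) (LinearMap.ext fun x => ?_)
    exact (hW _ x).1 (h ▸ Submodule.mem_top) ⟨e₀, he₀⟩
  · have h1 := hmap g hg.1 x hx
    have h2 : (fun e : E => l (g⁻¹ * e * g)) = fun e : E => l e := funext fun e => hg.2 e e.2
    rwa [h2] at h1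

end linear

/-- the statement proved by induction on the dimension -/
def ModJordanBound (p m n J : ℕ) : Prop :=
  ∀ (G : Type u) [Group G] [Finite G] (K : Type v) [Field K] [IsAlgClosed K] [CharP K p]
    (V : Type w) [AddCommGroup V] [Module K V] [FiniteDimensional K V] (ρ : Representation K G V),
    Module.finrank K V ≤ n → (Nat.card G).factorization p ≤ m → Function.Injective ρ →
    ∃ A : Subgroup G, A.Normal ∧ A ≤ Subgroup.centralizer (A : Set G) ∧ A.index ≤ J

theorem ModJordanBound.exists_index_le {p m n J : ℕ} (h : ModJordanBound.{u, v, w} p m n J)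
    {G : Type u} [Group G] [Finite G] {K : Type v} [Field K] [IsAlgClosed K] [CharP K p]
    {V : Type w} [AddCommGroup V] [Module K V] [FiniteDimensional K V] (ρ : Representation K G V)
    (hn : Module.finrank K V ≤ n) (hm : (Nat.card G).factorization p ≤ m) :
    ∃ A : Subgroup G, A.index ≤ J ∧ ∀ x ∈ A, ∀ y ∈ A, ⁅x, y⁆ ∈ MonoidHom.ker ρ := by
  have hinj : Function.Injective (QuotientGroup.lift (MonoidHom.ker ρ) ρ (fun _ h => h)) := by
    rw [injective_iff_map_eq_one]
    intro x hx
    obtain ⟨x, rfl⟩ := QuotientGroup.mk_surjective x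
    exact (QuotientGroup.eq_one_iff x).2 hx
  obtain ⟨A, -, h1, h2⟩ := h (G ⧸ MonoidHom.ker ρ) K V
    (QuotientGroup.lift (MonoidHom.ker ρ) ρ (fun _ h => h)) hn
    (le_trans ((Nat.factorization_le_iff_dvd Nat.card_pos.ne' Nat.card_pos.ne').2
      (Subgroup.card_quotient_dvd_card _) p) hm) hinj
  refine ⟨A.comap (QuotientGroup.mk' _), ?_, fun x hx y hy => ?_⟩
  · rwa [Subgroup.index_comap_of_surjective _ (QuotientGroup.mk'_surjective _)]
  · rw [← QuotientGroup.eq_one_iff, ← QuotientGroup.mk'_apply, map_commutatorElement,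
      commutatorElement_eq_one_iff_mul_comm]
    exact h1 hy _ hx

theorem ModJordanBound.of_reducible {p m n J : ℕ} [Fact p.Prime]
    (h : ModJordanBound.{u, v, w} p m n J)
    {G : Type u} [Group G] [Finite G] {K : Type v} [Field K] [IsAlgClosed K] [CharP K p]
    {V : Type w} [AddCommGroup V] [Module K V] [FiniteDimensional K V] (ρ : Representation K G V)
    (hn : Module.finrank K V ≤ n + 1) (hm : (Nat.card G).factorization p ≤ m)
    (hinj : Function.Injective ρ) (W : Submodule K V) (h0 : W ≠ ⊥) (h1 : W ≠ ⊤)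
    (hW : ∀ g, W ≤ W.comap (ρ g)) :
    ∃ A : Subgroup G, A ≤ Subgroup.centralizer (A : Set G) ∧
      A.index ≤ p ^ m * (J * J * (p ^ m) ^ p ^ m) := by
  have hp : p.Prime := Fact.out
  have hd := W.finrank_quotient_add_finrank
  have hd1 : Module.finrank K W < Module.finrank K V := Submodule.finrank_lt h1
  have hd0 : 0 < Module.finrank K W := by
    rw [Nat.pos_iff_ne_zero, Ne, Submodule.finrank_eq_zero]; exact h0
  obtain ⟨A₁, h2, h3⟩ := h.exists_index_le (ρ.subrepresentation W hW) (by omega) hm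
  obtain ⟨A₂, h4, h5⟩ := h.exists_index_le (ρ.quotient W hW) (by omega) hm
  refine (exists_abelian_index_le_of_commutator_mem hm (A₁ ⊓ A₂)
    (MonoidHom.ker (ρ.subrepresentation W hW) ⊓ MonoidHom.ker (ρ.quotient W hW)) (fun x hx => ?_)
    (fun x hx y hy => ⟨h3 x hx.1 y hy.1, h5 x hx.2 y hy.2⟩)).elim fun A ⟨h6, h7⟩ => ?_
  swap
  · exact ⟨A, h6, h7.trans (Nat.mul_le_mul_left _ (Nat.mul_le_mul_right _
      (Subgroup.index_inf_le.trans (Nat.mul_le_mul h2 h4))))⟩
  · have h8 : ∀ y ∈ W, ρ x y = y := fun y hy =>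
      congrArg Subtype.val (LinearMap.congr_fun (MonoidHom.mem_ker.1 hx.1) ⟨y, hy⟩)
    have h9 : ∀ y, ρ x y - y ∈ W := fun y => by
      rw [← Submodule.Quotient.eq]
      exact LinearMap.congr_fun (MonoidHom.mem_ker.1 hx.2) (Submodule.Quotient.mk y)
    have key : ∀ (k : ℕ) (y : V), (ρ x ^ k) y = y + k • (ρ x y - y) := by
      intro k y
      induction k with
      | zero => simp
      | succ k ih =>
        rw [pow_succ', Module.End.mul_apply, ih, map_add, map_nsmul, h8 _ (h9 y), succ_nsmul]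
        abel
    apply hinj
    rw [map_pow, map_one]
    ext y
    rw [key, ← Nat.cast_smul_eq_nsmul K, CharP.cast_eq_zero, zero_smul, add_zero,
      Module.End.one_apply]

/-- Brauer–Feit: the analogue of Jordan's theorem in characteristic `p` -/
theorem exists_modJordanBound (p m : ℕ) [Fact p.Prime] (n : ℕ) :
    ∃ J, ModJordanBound.{u, v, w} p m n J := by
  induction n with
  | zero =>
    refine ⟨1, fun G _ _ K _ _ _ V _ _ _ ρ hn _ hinj => ⟨⊤, inferInstance, ?_, by simp⟩⟩
    have : Subsingleton V := Module.finrank_zero_iff.1 (Nat.le_zero.1 hn)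
    intro x _ y _
    exact hinj (Subsingleton.elim _ _)
  | succ n ih =>
    obtain ⟨J, hJ⟩ := ih
    obtain ⟨B, hB⟩ := exists_bound_jordan_fan.{u}
      (p ^ m * (J * J * (p ^ m) ^ p ^ m) * (n + 1) + 1) ((n + 1) * (n + 1)) (n + 1)
      (Nat.le_add_left _ _)
    refine ⟨max B J, fun G _ _ K _ _ _ V _ _ _ ρ hn hm hinj => ?_⟩
    by_cases hn' : Module.finrank K V ≤ n
    · obtain ⟨A, h1, h2, h3⟩ := hJ G K V ρ hn' hm hinj
      exact ⟨A, h1, h2, h3.trans (le_max_right _ _)⟩
    have hd : Module.finrank K V = n + 1 := by omega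
    have : Nontrivial V := Module.nontrivial_of_finrank_eq_succ hd
    let Z : Subgroup G :=
      { carrier := {g | ∃ c : K, ρ g = c • 1}
        one_mem' := ⟨1, by simp⟩
        mul_mem' := by
          rintro a b ⟨c, hc⟩ ⟨d, hd⟩
          exact ⟨c * d, by rw [map_mul, hc, hd, smul_mul_smul_comm, mul_one]⟩
        inv_mem' := by
          rintro a ⟨c, hc⟩
          have h1 : c • ρ a⁻¹ = 1 := by
            rw [← map_one ρ, ← mul_inv_cancel a, map_mul, hc, smul_mul_assoc, one_mul]
          have h2 : c ≠ 0 := by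
            rintro rfl
            rw [zero_smul] at h1
            exact zero_ne_one h1
          exact ⟨c⁻¹, by rw [← h1, smul_smul, inv_mul_cancel₀ h2, one_smul]⟩ }
    refine (hB G Z ?_ ?_ (fun A => Module.finrank K (Submodule.span K (ρ '' A))) ?_ ?_ ?_).elim
      fun A ⟨h1, h2, h3⟩ => ?_
    rotate_right
    · exact ⟨A, h1, h2, h3.trans (le_max_left _ _)⟩
    · rintro z ⟨c, hc⟩
      rw [Subgroup.mem_center_iff]
      intro g
      apply hinj
      rw [map_mul, map_mul, hc, smul_mul_assoc, mul_smul_comm, mul_one, one_mul]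
    · classical
      have h1 : ∀ z : (Z ⊓ commutator G : Subgroup G), ∃ c : K, ρ z = c • 1 ∧
          c ∈ (Polynomial.nthRoots (n + 1) (1 : K)).toFinset := by
        rintro ⟨z, ⟨c, hc⟩, hz⟩
        refine ⟨c, hc, ?_⟩
        rw [Multiset.mem_toFinset, Polynomial.mem_nthRoots (Nat.succ_pos n)]
        have h2 := Abelianization.commutator_subset_ker
          ((LinearMap.det : (V →ₗ[K] V) →* K).comp ρ).toHomUnits hz
        rw [MonoidHom.mem_ker, Units.ext_iff] at h2
        simp only [MonoidHom.coe_toHomUnits, MonoidHom.comp_apply, Units.val_one] at h2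
        rwa [hc, LinearMap.det_smul, map_one, mul_one, hd] at h2
      choose c hc hc' using h1
      refine (Nat.card_le_card_of_injective (fun z => (⟨c z, hc' z⟩ :
        (Polynomial.nthRoots (n + 1) (1 : K)).toFinset)) fun a b hab => ?_).trans ?_
      · refine Subtype.ext (hinj ?_)
        rw [hc, hc, Subtype.mk.inj hab]
      · rw [Nat.card_eq_fintype_card, Fintype.card_coe]
        exact (Multiset.toFinset_card_le _).trans (Polynomial.card_nthRoots _ _)
    · intro A
      refine (Submodule.finrank_le _).trans ?_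
      rw [Module.finrank_linearMap, hd]
    · intro A₁ A₀ hle hc
      refine Submodule.finrank_lt_finrank_of_lt (lt_of_le_of_ne
        (Submodule.span_mono (Set.image_mono hle)) fun h => hc fun x hx a ha => hinj ?_)
      have h1 : ∀ f ∈ Submodule.span K (ρ '' A₁), f * ρ x = ρ x * f := by
        intro f hf
        induction hf using Submodule.span_induction with
        | mem f hf =>
          obtain ⟨y, hy, rfl⟩ := hf
          rw [← map_mul, ← map_mul, hx y hy]
        | zero => simp
        | add f g _ _ h1 h2 => rw [add_mul, mul_add, h1, h2]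
        | smul c f _ h1 => rw [smul_mul_assoc, mul_smul_comm, h1]
      rw [map_mul, map_mul]
      exact h1 _ (h ▸ Submodule.subset_span ⟨a, ha, rfl⟩)
    · intro E hE hEZ
      obtain ⟨e, he, heZ⟩ := SetLike.not_le_iff_exists.1 hEZ
      obtain ⟨S, W, h1, h2, h3, h4, h5⟩ := exists_reducible_relIndex_le ρ E hE
        ⟨e, he, fun c hc => heZ ⟨c, hc⟩⟩
      obtain ⟨A, h6, h7⟩ := hJ.of_reducible (G := S) (ρ.comp S.subtype) hn
        (le_trans ((Nat.factorization_le_iff_dvd Nat.card_pos.ne' Nat.card_pos.ne').2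
          S.card_subgroup_dvd_card p) hm) (hinj.comp S.subtype_injective) W h3 h4
        (fun g => h5 g g.2)
      refine ⟨A.map S.subtype, ?_, ?_⟩
      · rintro _ ⟨x, hx, rfl⟩ _ ⟨y, hy, rfl⟩
        exact congrArg Subtype.val (h6 hx y hy)
      · rw [← Subgroup.relIndex_mul_relIndex _ S _ (Subgroup.map_subtype_le A) h1]
        refine Nat.le_succ_of_le (Nat.mul_le_mul ?_ (h2.trans hn))
        rwa [Subgroup.relIndex, Subgroup.subgroupOf,
          Subgroup.comap_map_eq_self_of_injective S.subtype_injective]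

end Cfsg
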