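import Cfsg.Agent.CT.Monomial
import Cfsg.Agent.Grp.PSolvable
import Cfsg.Agent.Grp.Coprime
import Cfsg.Agent.Grp.Fitting

/-! Degrees of faithful characters of solvable groups with a non-normal Sylow subgroup. -/

namespace Cfsg

open scoped commutatorElement

universe u

variable {G : Type u} [Group G]

/-- The product of two `p`-elements is a `p`-element. -/
def PEltClosed (p : ℕ) (G : Type u) [Group G] : Prop :=
  ∀ x y : G, (∃ k : ℕ, x ^ p ^ k = 1) → (∃ k : ℕ, y ^ p ^ k = 1) → ∃ k : ℕ, (x * y) ^ p ^ k = 1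

theorem PEltClosed.of_mulEquiv {p : ℕ} {B : Type*} [Group B] (h : PEltClosed p G) (e : G ≃* B) :
    PEltClosed p B := fun x y hx hy =>
  (h (e.symm x) (e.symm y) (hx.imp fun _ h => by rw [← map_pow, h, map_one])
    (hy.imp fun _ h => by rw [← map_pow, h, map_one])).imp fun _ h => e.symm.injective (by
      rw [map_pow, map_mul, h, map_one])

theorem mem_sylow_of_normal_of_pow [Finite G] {p : ℕ} [Fact p.Prime] (P : Sylow p G)
    (h : (P : Subgroup G).Normal) {x : G} (hx : ∃ k : ℕ, x ^ p ^ k = 1) : x ∈ (P : Subgroup G) := by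
  have h1 : IsPGroup p (Subgroup.zpowers x) := by
    obtain ⟨k, hk⟩ := hx
    rintro ⟨_, i, rfl⟩
    exact ⟨k, Subtype.ext (by
      change (x ^ i) ^ p ^ k = 1
      rw [← zpow_natCast, ← zpow_mul, mul_comm, zpow_mul, zpow_natCast, hk, one_zpow])⟩
  obtain ⟨g, hg⟩ := exists_conj_le_sylow P h1
  have := hg (Subgroup.mem_zpowers x)
  rwa [Subgroup.Normal.conj_smul_eq_self] at this

theorem sylow_normal_iff_pEltClosed [Finite G] {p : ℕ} [Fact p.Prime] (P : Sylow p G) :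
    (P : Subgroup G).Normal ↔ PEltClosed p G := by
  refine ⟨fun h x y hx hy => ?_, fun h => ?_⟩
  · obtain ⟨k, hk⟩ := P.2 ⟨x * y, mul_mem (mem_sylow_of_normal_of_pow P h hx)
      (mem_sylow_of_normal_of_pow P h hy)⟩
    exact ⟨k, congrArg Subtype.val hk⟩
  · let S : Subgroup G :=
      { carrier := {x | ∃ k : ℕ, x ^ p ^ k = 1}
        one_mem' := ⟨0, one_pow _⟩
        mul_mem' := fun ha hb => h _ _ ha hb
        inv_mem' := fun ⟨k, hk⟩ => ⟨k, by rw [inv_pow, hk, inv_one]⟩ }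
    have hS : IsPGroup p S := fun ⟨x, k, hk⟩ => ⟨k, Subtype.ext hk⟩
    have h1 : S = P := P.3 hS fun x hx => by
      obtain ⟨k, hk⟩ := P.2 ⟨x, hx⟩
      exact ⟨k, congrArg Subtype.val hk⟩
    rw [← h1]
    exact ⟨fun x ⟨k, hk⟩ g => ⟨k, by rw [conj_pow, hk, mul_one, mul_inv_cancel]⟩⟩

theorem IsCharacter.exists_constituent_not_pEltClosed [Fintype G] {p : ℕ} {χ : G → ℂ}
    (h : IsCharacter G χ) (hf : charKer χ = ⊥) (hG : ¬ PEltClosed p G) :
    ∃ ψ : IrrCharacter G, classInner χ ψ.1 ≠ 0 ∧ ¬ PEltClosed p (G ⧸ charKer ψ.1) := by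
  by_contra! hc
  refine hG fun x y ⟨a, ha⟩ ⟨b, hb⟩ => ?_
  have h1 : ∀ ψ : IrrCharacter G, ∃ k : ℕ, classInner χ ψ.1 ≠ 0 →
      (x * y) ^ p ^ k ∈ charKer ψ.1 := fun ψ => by
    by_cases h0 : classInner χ ψ.1 = 0
    · exact ⟨0, fun h => (h h0).elim⟩
    · obtain ⟨k, hk⟩ := hc ψ h0 (x : G ⧸ charKer ψ.1) (y : G ⧸ charKer ψ.1)
        ⟨a, by rw [← QuotientGroup.mk_pow, ha, QuotientGroup.mk_one]⟩
        ⟨b, by rw [← QuotientGroup.mk_pow, hb, QuotientGroup.mk_one]⟩
      exact ⟨k, fun _ => by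
        rwa [← QuotientGroup.mk_mul, ← QuotientGroup.mk_pow, QuotientGroup.eq_one_iff] at hk⟩
  choose k hk using h1
  refine ⟨∑ ψ, k ψ, Subgroup.mem_bot.1 (hf ▸ h.mem_charKer_iff_constituents.2 fun ψ hψ => ?_)⟩
  obtain ⟨c, hc⟩ := Nat.exists_eq_add_of_le
    (Finset.single_le_sum (fun i _ => Nat.zero_le (k i)) (Finset.mem_univ ψ))
  rw [hc, pow_add, pow_mul]
  exact pow_mem (hk ψ hψ) _

theorem relIndex_centralizer_modEq_one [Finite G] {p : ℕ} [hp : Fact p.Prime] {P V : Subgroup G}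
    (hP : IsPGroup p P) (hn : P ≤ Subgroup.normalizer (V : Set G)) (hV : ¬ p ∣ Nat.card V) :
    (V ⊓ Subgroup.centralizer (P : Set G)).relIndex V ≡ 1 [MOD p] := by
  letI : MulAction P V := MulAction.compHom V (V.normalizerMonoidHom.comp (Subgroup.inclusion hn))
  have hs : ∀ (a : P) (v : V), ((a • v : V) : G) = a * v * (a : G)⁻¹ := fun _ _ => rfl
  have h1 := hP.card_modEq_card_fixedPoints V
  have h2 : Nat.card (MulAction.fixedPoints P V) =
      Nat.card (V ⊓ Subgroup.centralizer (P : Set G) : Subgroup G) := by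
    refine Nat.card_congr ⟨fun v => ⟨v.1, v.1.2, fun a ha => ?_⟩, fun v => ⟨⟨v.1, v.2.1⟩, fun a => ?_⟩,
      fun _ => rfl, fun _ => rfl⟩
    · have := congrArg Subtype.val (v.2 ⟨a, ha⟩)
      rw [hs] at this
      exact mul_inv_eq_iff_eq_mul.1 this
    · exact Subtype.ext (by rw [hs]; exact mul_inv_eq_iff_eq_mul.2 (v.2.2 a a.2))
  rw [h2, ← card_mul_relIndex (inf_le_left : V ⊓ Subgroup.centralizer (P : Set G) ≤ V)] at h1
  have h3 : (Nat.card (V ⊓ Subgroup.centralizer (P : Set G) : Subgroup G)).Coprime p :=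
    ((hp.out.coprime_iff_not_dvd).2 fun h => hV (h.trans
      (Subgroup.card_dvd_of_le inf_le_left))).symm
  exact Nat.ModEq.cancel_left_of_coprime h3.symm (by rwa [mul_one])

theorem exists_pow_relIndex_of_isPGroup [Finite G] {r : ℕ} [hr : Fact r.Prime] {C V : Subgroup G}
    (hV : IsPGroup r V) (h : C < V) : ∃ b : ℕ, b ≠ 0 ∧ C.relIndex V = r ^ b := by
  obtain ⟨a, ha⟩ := IsPGroup.iff_card.1 hV
  obtain ⟨b, -, hb⟩ := (Nat.dvd_prime_pow hr.out).1
    (ha ▸ Dvd.intro_left _ (card_mul_relIndex h.le))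
  refine ⟨b, fun h0 => h.not_ge (Subgroup.relIndex_eq_one.1 ?_), hb⟩
  rw [hb, h0, pow_zero]

theorem exists_primePow_dvd_index_of_isCoatom [Finite G] {p : ℕ} [hp : Fact p.Prime]
    (hs : Group.IsSolvable G) (h : ∀ K : Subgroup G, K.Normal → ¬ p ∣ K.index → K = ⊤)
    {M : Subgroup G} (hM : IsCoatom M) (hi : ¬ p ∣ M.index) :
    ∃ q : ℕ, IsPrimePow q ∧ q ∣ M.index ∧ q ≡ 1 [MOD p] := by
  induction' hn : Nat.card G using Nat.strong_induction_on with n ih generalizing G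
  haveI : Nontrivial G := Subgroup.nontrivial_iff.1 ⟨_, _, hM.1⟩
  obtain ⟨V, hV⟩ := exists_isMinNormal (G := G)
  haveI := hV.1
  by_cases hVM : V ≤ M
  · have h1 : (M.map (QuotientGroup.mk' V)).index = M.index := by
      rw [Subgroup.index_map, QuotientGroup.ker_mk', sup_eq_left.2 hVM,
        QuotientGroup.range_mk', Subgroup.index_top, mul_one]
    rw [← h1] at hi ⊢
    refine ih _ (hn ▸ card_quotient_lt hV.2.1) inferInstance (fun K hK hK' => ?_)
      (isCoatom_map_mk hM hVM) hi rfl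
    rw [← Subgroup.index_comap_of_surjective _ (QuotientGroup.mk'_surjective V)] at hK'
    exact Subgroup.comap_injective (QuotientGroup.mk'_surjective V)
      ((h _ inferInstance hK').trans (Subgroup.comap_top _).symm)
  · obtain ⟨r, hr, hE⟩ := hV.exists_isElementaryAbelian inferInstance
    haveI := Fact.mk hr
    have hc := hV.isComplement'_of_isCoatom hE.1 hM hVM
    have h1 : M.index = Nat.card V := hc.index_eq_card
    obtain ⟨P⟩ : Nonempty (Sylow p G) := inferInstance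
    have h2 : V ⊓ Subgroup.centralizer ((P : Subgroup G) : Set G) < V := by
      refine lt_of_le_of_ne inf_le_left fun he => hM.1 (h M ?_ hi)
      have h3 : Subgroup.centralizer (V : Set G) = ⊤ := h _ inferInstance fun hd =>
        P.not_dvd_index (hd.trans (Subgroup.index_dvd_of_le
          (Subgroup.le_centralizer_iff.1 (he.ge.trans inf_le_right))))
      refine ⟨fun m hm g => ?_⟩
      obtain ⟨⟨v, m'⟩, rfl, -⟩ := hc.existsUnique g
      have h4 : m' * m * (m' : G)⁻¹ ∈ Subgroup.centralizer (V : Set G) := h3 ▸ Subgroup.mem_top _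
      have h5 := h4 v v.2
      have h6 : (v : G) * m' * m * ((v : G) * m')⁻¹ = m' * m * (m' : G)⁻¹ := by
        rw [mul_inv_rev, ← mul_assoc, mul_inv_eq_iff_eq_mul, ← h5]; group
      rw [h6]
      exact mul_mem (mul_mem m'.2 hm) (inv_mem m'.2)
    obtain ⟨b, hb, hb'⟩ := exists_pow_relIndex_of_isPGroup hE.isPGroup h2
    refine ⟨r ^ b, (isPrimePow_nat_iff _).2 ⟨r, b, hr, Nat.pos_of_ne_zero hb, rfl⟩, ?_, ?_⟩
    · rw [h1, ← hb']; exact Dvd.intro_left _ (card_mul_relIndex h2.le)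
    · rw [← hb']
      exact relIndex_centralizer_modEq_one P.2 (Subgroup.le_normalizer_of_normal) (h1 ▸ hi)

theorem exists_sq_index_center [Finite G] {r : ℕ} [Fact r.Prime] (hG : IsPGroup r G)
    (hc : IsCyclic (Subgroup.center G)) (h : commutator G ≤ Subgroup.center G) :
    ∃ c : ℕ, (Subgroup.center G).index = (r ^ c) ^ 2 := by
  obtain ⟨φ, hφ⟩ := exists_faithful_irr_of_isPGroup hG hc
  obtain ⟨c, hc⟩ := φ.exists_charDegree_eq_pow hG
  rw [← φ.charCenter_eq_center_of_faithful hφ] at h ⊢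
  exact ⟨c, by rw [← φ.sq_charDegree_eq_index_of_commutator_le h, hc]⟩

theorem IsPrimitiveChar.exists_primePow_dvd [Fintype G] {p : ℕ} [hp : Fact p.Prime]
    (hs : Group.IsSolvable G) (h : ∀ K : Subgroup G, K.Normal → ¬ p ∣ K.index → K = ⊤)
    {χ : IrrCharacter G} (hχ : IsPrimitiveChar χ.1) (hf : charKer χ.1 = ⊥) (hG : ¬ PEltClosed p G)
    (hn : ¬ p ∣ charDegree χ.1) :
    ∃ q : ℕ, IsPrimePow q ∧ q ∣ charDegree χ.1 ∧ q ^ 2 ≡ 1 [MOD p] := by
  classical
  obtain ⟨P⟩ : Nonempty (Sylow p G) := inferInstance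
  have hf' := χ.charKer_eq_bot_iff.1 hf
  obtain ⟨r, hr⟩ : ∃ r : Nat.Primes, ¬ pCore r G ≤ Subgroup.center G := by
    by_contra! hc
    have h1 : fittingSubgroup G ≤ Subgroup.center G := by
      rw [fittingSubgroup_eq_iSup_pCore]; exact iSup_le hc
    have h2 : fittingSubgroup G = ⊤ := top_le_iff.1 fun g _ => centralizer_fittingSubgroup_le hs
      fun x hx => (Subgroup.mem_center_iff.1 (h1 hx) g).symm
    exact hG ((sylow_normal_iff_pEltClosed P).1
      (isNilpotent_iff_forall_sylow_normal.1 (fittingSubgroup_eq_top_iff.1 h2) p P))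
  obtain ⟨r, hr'⟩ := r
  haveI := Fact.mk hr'
  obtain ⟨K, ⟨hK, hKr, hKZ⟩, hmin⟩ := exists_minimal_of_wellFoundedLT
    (fun K : Subgroup G => K.Normal ∧ IsPGroup r K ∧ ¬ K ≤ Subgroup.center G)
    ⟨_, inferInstance, isPGroup_pCore r G, hr⟩
  have h1 : ⁅K, K⁆ ≤ Subgroup.center G := by
    by_contra hc
    have h2 : ⁅K, K⁆ < K := Group.IsSolvable.commutator_lt_of_ne_bot fun h0 => hKZ (h0 ▸ bot_le)
    exact h2.not_ge (hmin ⟨inferInstance, hKr.to_le h2.le, hc⟩ h2.le)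
  set L := K ⊓ Subgroup.centralizer (K : Set G) with hL
  obtain ⟨hLZ, hLc⟩ := hχ.le_center_of_faithful hf' L
    ⟨⟨fun a b => Subtype.ext (b.2.2 a a.2.1)⟩⟩
  have hcen : ∀ C : Subgroup G, C ≤ K → (∀ x ∈ C, x ∈ Subgroup.centralizer (C : Set G) → x ∈ L) →
      Subgroup.center C = L.subgroupOf C ∧ commutator C ≤ Subgroup.center C := fun C hC hC' => by
    refine ⟨le_antisymm (fun (x : C) hx => hC' x.1 x.2 fun y hy =>
      congrArg Subtype.val (Subgroup.mem_center_iff.1 hx ⟨y, hy⟩)) fun x hx =>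
        Subgroup.mem_center_iff.2 fun y => Subtype.ext (Subgroup.mem_center_iff.1 (hLZ hx) y), ?_⟩
    refine Subgroup.commutator_le.2 fun a _ b _ => Subgroup.mem_center_iff.2 fun y => Subtype.ext ?_
    exact Subgroup.mem_center_iff.1 (h1 (Subgroup.commutator_mem_commutator (hC a.2) (hC b.2))) y
  obtain ⟨θ, e, he, -, hθ⟩ := hχ.exists_res_eq_mul K
  have hθf : charKer θ.1 = ⊥ := θ.charKer_eq_bot_iff.2 fun g hg => Subtype.ext (hf' _ (by
    rw [hθ g, hg, ← hθ 1]; rfl))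
  have hdvd : charDegree θ.1 ∣ charDegree χ.1 := Dvd.intro_left e (by
    have := hθ 1
    rw [θ.one_eq_charDegree, OneMemClass.coe_one, χ.one_eq_charDegree] at this
    exact_mod_cast this.symm)
  obtain ⟨a, ha⟩ := θ.exists_charDegree_eq_pow hKr
  obtain ⟨hK1, hK2⟩ := hcen K le_rfl fun x hx hx' => ⟨hx, hx'⟩
  have h2 : (r ^ a) ^ 2 = L.relIndex K := by
    rw [← ha, θ.sq_charDegree_eq_index_of_commutator_le
      (θ.charCenter_eq_center_of_faithful hθf ▸ hK2), θ.charCenter_eq_center_of_faithful hθf, hK1]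
    rfl
  have hpK : ¬ p ∣ Nat.card K := fun hd => by
    obtain ⟨k, hk⟩ := IsPGroup.iff_card.1 hKr
    obtain rfl : p = r := (Nat.prime_dvd_prime_iff_eq hp.out hr').1
      (hp.out.dvd_of_dvd_pow (hk ▸ hd))
    obtain rfl : a = 0 := by
      by_contra h0
      exact hn ((dvd_pow_self p h0).trans (ha ▸ hdvd))
    exact hKZ ((Subgroup.relIndex_eq_one.1 (by rw [← h2]; simp)).trans hLZ)
  set C := K ⊓ Subgroup.centralizer ((P : Subgroup G) : Set G) with hC
  have h3 : C < K := lt_of_le_of_ne inf_le_left fun he => hKZ (by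
    have h3 : Subgroup.centralizer (K : Set G) = ⊤ := h _ inferInstance fun hd =>
      P.not_dvd_index (hd.trans (Subgroup.index_dvd_of_le
        (Subgroup.le_centralizer_iff.1 (he.ge.trans inf_le_right))))
    exact fun x hx => Subgroup.mem_center_iff.2 fun g =>
      ((h3.ge (Subgroup.mem_top g)) x hx).symm)
  have hLC : L ≤ C := le_inf inf_le_left fun x hx y _ => Subgroup.mem_center_iff.1 (hLZ hx) y
  obtain ⟨hC1, hC2⟩ := hcen C h3.le fun x hx hx' => ⟨hx.1, by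
    have h4 := commutator_sup_centralizer_of_coprime (N := K) (A := (P : Subgroup G))
      Subgroup.le_normalizer_of_normal (coprime_card_of_isPGroup P.2 hpK).symm
      (Or.inl inferInstance)
    have h5 : K ≤ Subgroup.centralizer {x} := by
      rw [← h4]
      refine sup_le (Subgroup.commutator_le.2 fun k hk y hy => ?_) fun y hy =>
        Subgroup.mem_centralizer_singleton_iff.2 (hx' y hy)
      have h6 := Subgroup.mem_center_iff.1 (h1 (Subgroup.commutator_mem_commutator hx.1 hk))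
      have h7 := hx.2 y hy
      rw [Subgroup.mem_centralizer_singleton_iff, eq_comm, ← mul_inv_eq_iff_eq_mul]
      calc x * ⁅k, y⁆ * x⁻¹ = ⁅x, k⁆ * k * (x * y * x⁻¹) * k⁻¹ * ⁅x, k⁆⁻¹ * (x * y * x⁻¹)⁻¹ := by
            simp only [commutatorElement_def]; group
        _ = ⁅x, k⁆ * (k * y * k⁻¹) * ⁅x, k⁆⁻¹ * y⁻¹ := by
            rw [← h7, mul_inv_cancel_right]; simp only [mul_assoc]
        _ = ⁅k, y⁆ := by rw [← h6]; simp only [commutatorElement_def]; group
    exact fun y hy => Subgroup.mem_centralizer_singleton_iff.1 (h5 hy)⟩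
  obtain ⟨c, hc⟩ := exists_sq_index_center (hKr.to_le h3.le) (by
    rw [hC1]
    exact isCyclic_of_surjective _ (Subgroup.subgroupOfEquivOfLe hLC).symm.surjective) hC2
  obtain ⟨b, hb, hb'⟩ := exists_pow_relIndex_of_isPGroup hKr h3
  have h4 := Subgroup.relIndex_mul_relIndex L C K hLC h3.le
  rw [← h2, hb', show L.relIndex C = (r ^ c) ^ 2 from (congrArg _ hC1.symm).trans hc, ← pow_mul, ← pow_mul,
    ← pow_add] at h4
  have h5 := Nat.pow_right_injective hr'.two_le h4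
  refine ⟨r ^ (a - c), (isPrimePow_nat_iff _).2 ⟨r, _, hr', by omega, rfl⟩,
    (pow_dvd_pow r (Nat.sub_le _ _)).trans (ha ▸ hdvd), ?_⟩
  rw [← pow_mul, show (a - c) * 2 = b by omega, ← hb']
  exact relIndex_centralizer_modEq_one P.2 Subgroup.le_normalizer_of_normal hpK

theorem PEltClosed.of_normal [Finite G] {p : ℕ} [Fact p.Prime] {K : Subgroup G} [K.Normal]
    (h : PEltClosed p K) (hi : ¬ p ∣ K.index) : PEltClosed p G := by
  have h1 : ∀ x : G, (∃ k : ℕ, x ^ p ^ k = 1) → x ∈ K := fun x ⟨k, hk⟩ => by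
    obtain ⟨Q, hQ⟩ := IsPGroup.exists_le_sylow (p := p) (P := Subgroup.zpowers x) (by
      rintro ⟨_, i, rfl⟩
      exact ⟨k, Subtype.ext (by
        change (x ^ i) ^ p ^ k = 1
        rw [← zpow_natCast, ← zpow_mul, mul_comm, zpow_mul, zpow_natCast, hk, one_zpow])⟩)
    exact sylow_le_of_normal_of_not_dvd_index Q hi (hQ (Subgroup.mem_zpowers x))
  intro x y hx hy
  obtain ⟨k, hk⟩ := h ⟨x, h1 x hx⟩ ⟨y, h1 y hy⟩ (hx.imp fun _ h => Subtype.ext h)
    (hy.imp fun _ h => Subtype.ext h)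
  exact ⟨k, congrArg Subtype.val hk⟩

theorem IrrCharacter.exists_primePow_dvd_of_not_pEltClosed {p : ℕ} [hp : Fact p.Prime]
    (G : Type u) [Group G] [Finite G] : Group.IsSolvable G → ∀ χ : IrrCharacter G,
      ¬ PEltClosed p (G ⧸ charKer χ.1) →
      ∃ q : ℕ, IsPrimePow q ∧ q ∣ charDegree χ.1 ∧ (q = p ∨ q ^ 2 ≡ 1 [MOD p]) := by
  classical
  refine induction_on_card (P := fun G _ _ => Group.IsSolvable G → ∀ χ : IrrCharacter G,
      ¬ PEltClosed p (G ⧸ charKer χ.1) →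
      ∃ q : ℕ, IsPrimePow q ∧ q ∣ charDegree χ.1 ∧ (q = p ∨ q ^ 2 ≡ 1 [MOD p])) ?_ G
  intro G _ _ ih hs χ hχ
  haveI := Fintype.ofFinite G
  have key : ∀ (G : Type u) [Group G] [Finite G] (χ : IrrCharacter G), charKer χ.1 = ⊥ →
      (PEltClosed p (G ⧸ charKer χ.1) ↔ PEltClosed p G) := fun G _ _ χ hf => by
    have e : G ⧸ charKer χ.1 ≃* G :=
      (QuotientGroup.quotientMulEquivOfEq hf).trans QuotientGroup.quotientBot
    exact ⟨fun h => h.of_mulEquiv e, fun h => h.of_mulEquiv e.symm⟩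
  by_cases hf : charKer χ.1 = ⊥
  swap
  · rw [← χ.charDegree_deflate _ le_rfl]
    exact ih _ (card_quotient_lt hf) inferInstance _ (mt (key _ _ χ.charKer_deflate_self).1 hχ)
  rw [key G χ hf] at hχ
  by_cases hn : p ∣ charDegree χ.1
  · exact ⟨p, hp.out.isPrimePow, hn, Or.inl rfl⟩
  by_cases h : ∀ K : Subgroup G, K.Normal → ¬ p ∣ K.index → K = ⊤
  swap
  · push Not at h
    obtain ⟨K, hK, hK1, hK2⟩ := h
    obtain ⟨ψ, h1, h2⟩ := (χ.isCharacter.res K).exists_constituent_not_pEltClosed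
      (by rw [χ.isCharacter.charKer_res, hf, Subgroup.bot_subgroupOf])
      (fun h => hχ (h.of_normal hK1))
    obtain ⟨q, hq1, hq2, hq3⟩ := ih _ (card_lt_of_ne_top hK2) inferInstance ψ h2
    exact ⟨q, hq1, hq2.trans (clifford_charDegree_dvd χ h1), hq3⟩
  by_cases hprim : IsPrimitiveChar χ.1
  · obtain ⟨q, hq1, hq2, hq3⟩ := hprim.exists_primePow_dvd hs h hf hχ hn
    exact ⟨q, hq1, hq2, Or.inr hq3⟩
  · simp only [IsPrimitiveChar, not_forall, not_not] at hprim
    obtain ⟨H, hH, θ, hθ, he⟩ := hprim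
    obtain ⟨M, hM, hHM⟩ := (eq_top_or_exists_le_coatom H).resolve_left hH
    have h1 : M.index ∣ charDegree χ.1 := (Subgroup.index_dvd_of_le hHM).trans
      (he ▸ hθ.charDegree_indFun ▸ Dvd.intro _ rfl)
    obtain ⟨q, hq1, hq2, hq3⟩ := exists_primePow_dvd_index_of_isCoatom hs h hM
      fun hd => hn (hd.trans h1)
    exact ⟨q, hq1, hq2.trans h1, Or.inr (by simpa using hq3.pow 2)⟩

end Cfsg
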